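import Mathlib
import Cfsg.Agent.H363.Master

/-!
# Bounds for the index of the simple section, and outer automorphisms
-/

set_option autoImplicit false

namespace Cfsg.Agent.H363.Master

open Subgroup Cfsg.Agent.H363.Frat

universe u

/-- if some element has order divisible by the full `r`-part of the group order, then every
`r`-subgroup is cyclic. -/
theorem isCyclic_of_isPGroup {G : Type*} [Group G] [Finite G] {r : ℕ} (hr : r.Prime)
    (hx : ∃ x : G, r ^ (Nat.card G).factorization r ∣ orderOf x) {S : Subgroup G}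
    (hS : IsPGroup r S) : IsCyclic S := by
  have : Fact r.Prime := ⟨hr⟩
  obtain ⟨x, hx⟩ := hx
  obtain ⟨c, hc⟩ := hx
  have hc0 : c ≠ 0 := by
    rintro rfl
    rw [mul_zero] at hc
    exact (orderOf_pos x).ne' hc
  have ho : orderOf (x ^ c) = r ^ (Nat.card G).factorization r := by
    rw [orderOf_pow' x hc0, hc, Nat.gcd_eq_right (Dvd.intro_left _ rfl)]
    exact Nat.mul_div_cancel _ (Nat.pos_of_ne_zero hc0)
  let R0 : Sylow r G := Sylow.ofCard (Subgroup.zpowers (x ^ c)) (by rw [Nat.card_zpowers, ho])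
  have hR0 : IsCyclic (R0 : Subgroup G) := by
    have : (R0 : Subgroup G) = Subgroup.zpowers (x ^ c) := Sylow.coe_ofCard _ _
    rw [this]; infer_instance
  obtain ⟨R, hSR⟩ := hS.exists_le_sylow
  have e : (R : Subgroup G) ≃* (R0 : Subgroup G) := Sylow.equiv R R0
  have hR : IsCyclic (R : Subgroup G) := isCyclic_of_surjective e.symm e.symm.surjective
  exact isCyclic_of_injective (Subgroup.inclusion hSR) (Subgroup.inclusion_injective hSR)

/-- The quotient `G / N` has a cyclic Sylow `p`-subgroup, in a strong sense: `G` has an element of order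
`|G / N|_p`. -/
theorem exists_orderOf_eq {G : Type*} [Group G] [Finite G] {p r : ℕ} (hp : p.Prime) (hr : r.Prime)
    (hr2 : r ≠ 2) (hrp : r ≠ p) (hnr : NonAdj G r p)
    (hx : ∃ x : G, r ^ (Nat.card G).factorization r ∣ orderOf x) (N : Subgroup G) [N.Normal]
    (hrN : r ∣ Nat.card N) {k : ℕ} (hk : p ^ k ∣ N.index) : ∃ y : G, orderOf y = p ^ k := by
  have : Fact p.Prime := ⟨hp⟩
  have : Fact r.Prime := ⟨hr⟩
  obtain ⟨S, Q, hSN, hS, hScard, hQ, hpQ, hQS⟩ := exists_normalizing hp hr N hk
  have hScyc : IsCyclic S := isCyclic_of_isPGroup hr hx hS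
  have hS1 : S ≠ ⊥ := by
    rintro rfl
    rw [Subgroup.card_bot] at hScard
    have h1 := hr.factorization_pos_of_dvd Nat.card_pos.ne' hrN
    have h2 : 1 < r ^ (Nat.card N).factorization r := Nat.one_lt_pow h1.ne' hr.one_lt
    omega
  obtain ⟨y, hyS, hy1⟩ : ∃ y : G, y ∈ S ∧ y ≠ 1 := by
    obtain ⟨y, hy⟩ := Subgroup.ne_bot_iff_exists_ne_one.mp hS1
    exact ⟨(y : G), y.2, fun h => hy (Subtype.ext h)⟩
  let φ : Q →* MulAut S := (S.normalizerMonoidHom).comp (Subgroup.inclusion hQS)
  have hφ : Function.Injective φ := by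
    rw [injective_iff_map_eq_one]
    intro a ha
    have h1 : (a : G) * y * (a : G)⁻¹ = y := by
      have h2 := congrArg (fun f : MulAut S => ((f ⟨y, hyS⟩ : S) : G)) ha
      exact h2
    have h2 : Commute (a : G) y := mul_inv_eq_iff_eq_mul.mp h1
    apply Subtype.ext
    refine eq_one_of_commute hp hr hrp.symm hnr.symm ?_ ?_ h2 hy1
    · rw [Subgroup.orderOf_coe]
      exact (IsPGroup.iff_orderOf.mp hQ) a
    · obtain ⟨j, hj⟩ := (IsPGroup.iff_orderOf.mp hS) ⟨y, hyS⟩
      exact ⟨j, by rw [← hj, ← Subgroup.orderOf_coe]⟩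
  have hcycA : IsCyclic (MulAut S) := by
    have h1 : IsCyclic (ZMod (Nat.card S))ˣ := by
      rw [hScard]
      exact ZMod.isCyclic_units_of_prime_pow r hr hr2 _
    have e := IsCyclic.mulAutMulEquiv S
    exact isCyclic_of_surjective e.symm e.symm.surjective
  have hcycQ : IsCyclic Q := isCyclic_of_injective φ hφ
  obtain ⟨z, hz⟩ := IsCyclic.exists_generator (α := Q)
  have hzo : orderOf (z : G) = Nat.card Q := by
    rw [Subgroup.orderOf_coe, orderOf_eq_card_of_forall_mem_zpowers hz]
  obtain ⟨c, hc⟩ := hpQ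
  have hc0 : c ≠ 0 := by
    rintro rfl
    rw [mul_zero] at hc
    exact Nat.card_pos.ne' hc
  refine ⟨(z : G) ^ c, ?_⟩
  rw [orderOf_pow' _ hc0, hzo, hc, Nat.gcd_eq_right (Dvd.intro_left _ rfl)]
  exact Nat.mul_div_cancel _ (Nat.pos_of_ne_zero hc0)

/-- transfer of the cyclicity hypothesis to a quotient. -/
theorem exists_orderOf_quotient {G : Type*} [Group G] [Finite G] {r : ℕ} (hr : r.Prime)
    (hx : ∃ x : G, r ^ (Nat.card G).factorization r ∣ orderOf x) {K : Subgroup G} [K.Normal]
    (hrK : ¬ r ∣ Nat.card K) : ∃ x : G ⧸ K, r ^ (Nat.card (G ⧸ K)).factorization r ∣ orderOf x := by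
  obtain ⟨x, hx⟩ := hx
  refine ⟨QuotientGroup.mk' K x, ?_⟩
  rw [factorization_quotient hrK]
  set o := orderOf (QuotientGroup.mk' K x) with ho
  have h1 : x ^ o ∈ K := by
    rw [← QuotientGroup.eq_one_iff]
    have := pow_orderOf_eq_one (QuotientGroup.mk' K x)
    rw [← ho, ← map_pow] at this
    exact this
  have h2 : x ^ (o * Nat.card K) = 1 := by
    rw [pow_mul]
    have := pow_card_eq_one' (x := (⟨x ^ o, h1⟩ : K))
    exact congrArg Subtype.val this
  have h3 := hx.trans (orderOf_dvd_of_pow_eq_one h2)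
  refine Nat.Coprime.dvd_of_dvd_mul_right ?_ h3
  exact Nat.Coprime.pow_left _ ((Nat.Prime.coprime_iff_not_dvd hr).mpr hrK)

/-- elements of order `p ^ k` lift from `G / K` if `K` is a `p'`-group. -/
theorem exists_orderOf_lift {G : Type*} [Group G] [Finite G] {m : ℕ} {K : Subgroup G} [K.Normal]
    (hy : ∃ y : G ⧸ K, orderOf y = m) : ∃ y : G, m ∣ orderOf y := by
  obtain ⟨y, rfl⟩ := hy
  obtain ⟨z, rfl⟩ := QuotientGroup.mk'_surjective K y
  exact ⟨z, orderOf_map_dvd _ _⟩

/-! ### Outer automorphisms -/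

/-- A prime `t` dividing neither the order of the centralizer nor `|Aut N| / |N|` does not divide the
index of `N`. -/
theorem not_dvd_index {G : Type*} [Group G] [Finite G] (N : Subgroup G) [N.Normal]
    {t c : ℕ} (ht : t.Prime)
    (hA : Nat.card (MulAut N) = c * Nat.card N) (htc : ¬ t ∣ c)
    (hC : ¬ t ∣ Nat.card (Subgroup.centralizer (N : Set G))) : ¬ t ∣ N.index := by
  have : Finite (MulAut N) := by
    have h1 : Finite (N → N) := inferInstance
    exact Finite.of_injective (fun f : MulAut N => (f : N → N)) (fun f g h => MulEquiv.ext (congrFun h))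
  set C := Subgroup.centralizer (N : Set G) with hCdef
  have hc0 : c ≠ 0 := by
    rintro rfl
    rw [zero_mul] at hA
    exact Nat.card_pos.ne' hA
  let φ : G →* MulAut N := MulAut.conjNormal
  have hker : φ.ker = C := by
    ext g
    rw [MonoidHom.mem_ker, hCdef, Subgroup.mem_centralizer_iff]
    constructor
    · intro h x hx
      have h2 := congrArg (fun f : MulAut N => ((f ⟨x, hx⟩ : N) : G)) h
      have h3 : g * x * g⁻¹ = x := by
        have h4 := MulAut.conjNormal_apply (H := N) g ⟨x, hx⟩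
        rw [← h4]; exact h2
      exact (mul_inv_eq_iff_eq_mul.mp h3).symm
    · intro h
      ext x
      have h4 := MulAut.conjNormal_apply (H := N) g x
      show ((MulAut.conjNormal g x : N) : G) = x
      rw [h4, mul_inv_eq_iff_eq_mul]
      exact (h x x.2).symm
  have h1 : C.index ∣ Nat.card (MulAut N) := by
    rw [← hker, Subgroup.index_ker]
    exact Subgroup.card_subgroup_dvd_card _
  intro hd
  have hG0 : Nat.card G ≠ 0 := Nat.card_pos.ne'
  have hN0 : Nat.card N ≠ 0 := Nat.card_pos.ne'
  have hC0 : Nat.card C ≠ 0 := Nat.card_pos.ne'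
  have hI0 : C.index ≠ 0 := Subgroup.index_ne_zero_of_finite
  have hJ0 : N.index ≠ 0 := Subgroup.index_ne_zero_of_finite
  have h2 : (Nat.card G).factorization t = C.index.factorization t := by
    rw [← C.card_mul_index, Nat.factorization_mul hC0 hI0, Finsupp.add_apply,
      Nat.factorization_eq_zero_of_not_dvd hC, zero_add]
  have h3 : (Nat.card G).factorization t = (Nat.card N).factorization t + N.index.factorization t := by
    rw [← N.card_mul_index, Nat.factorization_mul hN0 hJ0, Finsupp.add_apply]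
  have h4 : C.index.factorization t ≤ (Nat.card (MulAut N)).factorization t :=
    (Nat.factorization_le_iff_dvd hI0 Nat.card_pos.ne').mpr h1 t
  have h5 : (Nat.card (MulAut N)).factorization t = (Nat.card N).factorization t := by
    rw [hA, Nat.factorization_mul hc0 hN0, Finsupp.add_apply, Nat.factorization_eq_zero_of_not_dvd htc, zero_add]
  have h6 := ht.factorization_pos_of_dvd hJ0 hd
  omega

end Cfsg.Agent.H363.Master
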