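import Mathlib
import Cfsg.Agent.H902.Dom
import Cfsg.Agent.BpSpor.Act
import Cfsg.Agent.H363.MasterB

/-!
# The `p`-part of `|GL_d(t)|`, and the exclusion of primes dividing the core
-/

set_option autoImplicit false

namespace Cfsg.Agent.H363.Master

open Finset Cfsg.Agent.H902.Lte

theorem W_natAbs {t : ℕ} (ht : 2 ≤ t) (d : ℕ) :
    (W (t : ℤ) d).natAbs = ∏ i ∈ range d, (t ^ (i + 1) - 1) := by
  have h : W (t : ℤ) d = ((∏ i ∈ range d, (t ^ (i + 1) - 1) : ℕ) : ℤ) := by
    rw [W, Nat.cast_prod]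
    apply Finset.prod_congr rfl
    intro i _
    have h1 : 1 ≤ t ^ (i + 1) := Nat.one_le_pow _ _ (by omega)
    rw [Nat.cast_sub h1]
    push_cast; rfl
  rw [h, Int.natAbs_natCast]

theorem P_W_le {r t : ℕ} (hr : r.Prime) (ht : 2 ≤ t) (hrt : ¬ r ∣ t) (d : ℕ) :
    Cfsg.Agent.H902.Art.P r (∏ i ∈ range d, (t ^ (i + 1) - 1)) ≤ t ^ (3 * d) := by
  have hx : (2 : ℤ) ≤ |(t : ℤ)| := by
    rw [abs_of_nonneg (by positivity)]
    exact_mod_cast ht
  have hrx : ¬ (r : ℤ) ∣ (t : ℤ) := Cfsg.Agent.H902.Art.not_dvd_cast hrt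
  have hsub : ∀ k : ℕ, ((t : ℤ) ^ k - 1).natAbs = t ^ k - 1 := by
    intro k
    have h4 : (t : ℤ) ^ k - 1 = ((t ^ k - 1 : ℕ) : ℤ) := by
      rw [Nat.cast_sub (Nat.one_le_pow _ _ (by omega))]; push_cast; rfl
    rw [h4, Int.natAbs_natCast]
  have hne : ∀ k : ℕ, 1 ≤ k → t ^ k - 1 ≠ 0 := by
    intro k hk
    have : t ^ 1 ≤ t ^ k := Nat.pow_le_pow_right (by omega) hk
    rw [pow_one] at this; omega
  rw [← W_natAbs ht]
  by_cases hr2 : r = 2
  · subst hr2
    rw [Cfsg.Agent.H902.Art.PW_two hx hrx]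
    have h1 : Cfsg.Agent.H902.Art.P 2 ((t : ℤ) - 1).natAbs ≤ t := by
      have h2 := hsub 1
      rw [pow_one, pow_one] at h2
      rw [h2]
      have h3 := hne 1 le_rfl
      rw [pow_one] at h3
      exact (Cfsg.Agent.H902.Art.P_le h3).trans (by omega)
    have h2 : Cfsg.Agent.H902.Art.P 2 ((t : ℤ) ^ 2 - 1).natAbs ≤ t ^ 2 := by
      rw [hsub]
      exact (Cfsg.Agent.H902.Art.P_le (hne 2 (by norm_num))).trans (by omega)
    have h3 : 2 ^ padicValNat 2 (d / 2).factorial ≤ t ^ (d / 2) := by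
      rcases Nat.eq_zero_or_pos (d / 2) with h0 | h0
      · rw [h0]; simp
      · refine (pow_val_factorial_two_le (a := d / 2) (by omega)).trans ?_
        calc 2 ^ (d / 2 - 1) ≤ 2 ^ (d / 2) := Nat.pow_le_pow_right (by norm_num) (by omega)
          _ ≤ t ^ (d / 2) := Nat.pow_le_pow_left ht _
    calc _ ≤ t ^ ((d + 1) / 2) * (t ^ 2) ^ (d / 2) * t ^ (d / 2) :=
          Nat.mul_le_mul (Nat.mul_le_mul (Nat.pow_le_pow_left h1 _) (Nat.pow_le_pow_left h2 _)) h3
      _ = t ^ ((d + 1) / 2 + 2 * (d / 2) + d / 2) := by rw [← pow_mul, ← pow_add, ← pow_add]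
      _ ≤ t ^ (3 * d) := Nat.pow_le_pow_right (by omega) (by omega)
  · set e := orderOf ((t : ℤ) : ZMod r) with he
    have he1 : 1 ≤ e := Cfsg.Agent.H902.Art.order_pos (q := t) hr hrx
    by_cases h0 : d / e = 0
    · rw [Cfsg.Agent.H902.Art.PW_zero hr hr2 hx hrx d h0]
      exact Nat.one_le_pow _ _ (by omega)
    · apply Cfsg.Agent.H902.Art.le_of_sq_le
      have h1 := Cfsg.Agent.H902.Art.PW_odd_sq hr hr2 hx hrx d ((t ^ e) ^ 2) (by
        rw [← he, hsub]
        apply Nat.pow_le_pow_left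
        exact (Cfsg.Agent.H902.Art.P_le (hne e he1)).trans (by omega)) h0
      rw [← he] at h1
      refine h1.trans ?_
      have h2 : d / e * e ≤ d := Nat.div_mul_le_self d e
      have h3 : d / e ≤ d := Nat.div_le_self d e
      have h4 : 3 ^ (d / e - 1) ≤ t ^ (2 * d) := by
        calc 3 ^ (d / e - 1) ≤ 4 ^ (d / e - 1) := Nat.pow_le_pow_left (by norm_num) _
          _ ≤ 4 ^ d := Nat.pow_le_pow_right (by norm_num) (by omega)
          _ = 2 ^ (2 * d) := by rw [pow_mul]; norm_num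
          _ ≤ t ^ (2 * d) := Nat.pow_le_pow_left ht _
      calc ((t ^ e) ^ 2) ^ (d / e) * 3 ^ (d / e - 1) ≤ ((t ^ e) ^ 2) ^ (d / e) * t ^ (2 * d) :=
            Nat.mul_le_mul_left _ h4
        _ = t ^ (e * (2 * (d / e)) + 2 * d) := by rw [← pow_mul, ← pow_mul, ← pow_add]
        _ ≤ t ^ (2 * (3 * d)) := by
            apply Nat.pow_le_pow_right (by omega)
            have h5 : e * (2 * (d / e)) = 2 * (d / e * e) := by ring
            omega
        _ = (t ^ (3 * d)) ^ 2 := by rw [← pow_mul]; ring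

theorem prod_gl (q n : ℕ) :
    ∏ i : Fin n, (q ^ n - q ^ (i : ℕ)) = q ^ (n * (n - 1) / 2) * ∏ i ∈ range n, (q ^ (i + 1) - 1) := by
  rw [Fin.prod_univ_eq_prod_range (fun i => q ^ n - q ^ i) n]
  have h1 : ∀ i ∈ range n, q ^ n - q ^ i = q ^ i * (q ^ (n - i) - 1) := by
    intro i hi
    rw [mem_range] at hi
    rw [Nat.mul_sub, mul_one, ← pow_add, Nat.add_sub_cancel' hi.le]
  rw [Finset.prod_congr rfl h1, Finset.prod_mul_distrib, Finset.prod_pow_eq_pow_sum, Finset.sum_range_id]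
  congr 1
  rw [← Finset.prod_range_reflect]
  apply Finset.prod_congr rfl
  intro i hi
  rw [mem_range] at hi
  congr 2
  omega

/-- a `p`-power dividing the order of `Aut R`, `R` a `t`-group. -/
theorem pow_le_of_dvd_mulAut {R : Type*} [Group R] [Finite R] {p t : ℕ} (hp : p.Prime) (ht : t.Prime)
    (hpt : p ≠ t) (hR : IsPGroup t R) {a : ℕ} (h : p ^ a ∣ Nat.card (MulAut R)) :
    p ^ a ≤ Nat.card R ^ 3 := by
  have : Fact t.Prime := ⟨ht⟩
  obtain ⟨k, hk⟩ := hR.exists_card_eq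
  obtain ⟨d, M, hdk, -, hdvd⟩ := Cfsg.Agent.BpSpor.card_mulAut_dvd hR hk
  rw [prod_gl] at hdvd
  have h1 := h.trans hdvd
  have hpt' : ¬ p ∣ t := fun h0 => hpt ((Nat.prime_dvd_prime_iff_eq hp ht).mp h0)
  rw [← mul_assoc, ← pow_add] at h1
  have h2 : p ^ a ∣ ∏ i ∈ range d, (t ^ (i + 1) - 1) := by
    refine Nat.Coprime.dvd_of_dvd_mul_left ?_ h1
    apply Nat.Coprime.pow
    exact (Nat.Prime.coprime_iff_not_dvd hp).mpr hpt'
  have hne : ∏ i ∈ range d, (t ^ (i + 1) - 1) ≠ 0 := by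
    rw [Finset.prod_ne_zero_iff]
    intro i _
    have : t ^ 1 ≤ t ^ (i + 1) := Nat.pow_le_pow_right ht.pos (by omega)
    have h3 := ht.two_le
    rw [pow_one] at this; omega
  have h3 : a ≤ (∏ i ∈ range d, (t ^ (i + 1) - 1)).factorization p :=
    (hp.pow_dvd_iff_le_factorization hne).mp h2
  calc p ^ a ≤ p ^ (∏ i ∈ range d, (t ^ (i + 1) - 1)).factorization p := Nat.pow_le_pow_right hp.pos h3
    _ ≤ t ^ (3 * d) := P_W_le hp ht.two_le hpt' d
    _ ≤ t ^ (3 * k) := Nat.pow_le_pow_right ht.pos (by omega)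
    _ = Nat.card R ^ 3 := by rw [hk, ← pow_mul, mul_comm]

end Cfsg.Agent.H363.Master

namespace Cfsg.Agent.H363.Master

open Subgroup Cfsg.Agent.H363.Frat

/-- **Primes dividing the core**: if `t` divides `|K|` and some prime dividing `|N|` is not adjacent to
`t`, then the `p`-part of `|N|` is at most `|K| ^ 3`. -/
theorem pow_le_of_dvd_core {G : Type*} [Group G] [Finite G] {K : Subgroup G} [K.Normal]
    (N : Subgroup (G ⧸ K)) [N.Normal] [IsSimpleGroup N] {p s t : ℕ} (hp : p.Prime) (hs : s.Prime)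
    (ht : t.Prime) (hst : s ≠ t) (hpK : ¬ p ∣ Nat.card K) (htK : t ∣ Nat.card K) (hsN : s ∣ Nat.card N)
    (hna : NonAdj G s t) : p ^ (Nat.card N).factorization p ≤ Nat.card K ^ 3 := by
  have : Fact p.Prime := ⟨hp⟩
  have : Fact s.Prime := ⟨hs⟩
  have : Fact t.Prime := ⟨ht⟩
  have hpt : p ≠ t := by rintro rfl; exact hpK htK
  obtain ⟨Q⟩ : Nonempty (Sylow t K) := inferInstance
  set T : Subgroup G := (Q : Subgroup K).map K.subtype with hT
  set L : Subgroup G := normalizer (T : Set G) with hL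
  have hLK : L ⊔ K = ⊤ := Sylow.normalizer_sup_eq_top Q
  have hTK : T ≤ K := by
    rintro _ ⟨x, _, rfl⟩
    exact x.2
  have hTcard : Nat.card T ≤ Nat.card K := Nat.le_of_dvd Nat.card_pos (Subgroup.card_dvd_of_le hTK)
  have hTp : IsPGroup t T := Q.2.map K.subtype
  have hTt : t ∣ Nat.card T := by
    have h1 : Nat.card T = Nat.card Q := by
      rw [hT, Subgroup.card_map_of_injective K.subtype_injective]
    rw [h1, Q.card_eq_multiplicity]
    exact dvd_pow_self t (ht.factorization_pos_of_dvd Nat.card_pos.ne' htK).ne'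
  let ψ : L →* MulAut T := T.normalizerMonoidHom
  let π : L →* G ⧸ K := (QuotientGroup.mk' K).comp L.subtype
  have hπ : Function.Surjective π := by
    intro y
    obtain ⟨g, rfl⟩ := QuotientGroup.mk'_surjective K y
    have hg : g ∈ L ⊔ K := by rw [hLK]; exact mem_top g
    obtain ⟨l, hl, k, hk, rfl⟩ := (Subgroup.mem_sup_of_normal_right).mp hg
    refine ⟨⟨l, hl⟩, ?_⟩
    show QuotientGroup.mk' K l = QuotientGroup.mk' K (l * k)
    rw [map_mul]
    have : QuotientGroup.mk' K k = 1 := (QuotientGroup.eq_one_iff k).mpr hk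
    rw [this, mul_one]
  -- the part of `L` over `N`
  set LN : Subgroup L := N.comap π with hLN
  set C : Subgroup L := ψ.ker ⊓ LN with hC
  have hCn : (C.map π).Normal := (inferInstance : C.Normal).map π hπ
  have hCN : C.map π ≤ N := by
    rintro _ ⟨x, hx, rfl⟩
    exact hx.2
  have hCsub : ((C.map π).subgroupOf N).Normal := hCn.subgroupOf N
  rcases (IsSimpleGroup.eq_bot_or_eq_top_of_normal _ hCsub) with hbot | htop
  · -- `C ≤ K`
    have hCbot : C.map π = ⊥ := by
      rw [Subgroup.subgroupOf_eq_bot] at hbot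
      exact (disjoint_iff.mp hbot) ▸ (inf_eq_left.mpr hCN).symm
    have hCK : ∀ x ∈ C, (x : G) ∈ K := by
      intro x hx
      have h1 : π x ∈ C.map π := ⟨x, hx, rfl⟩
      rw [hCbot, Subgroup.mem_bot] at h1
      exact (QuotientGroup.eq_one_iff (x : G)).mp h1
    have hpC : ¬ p ∣ Nat.card C := by
      intro h
      apply hpK
      have h1 : Nat.card (C.map L.subtype) = Nat.card C := Subgroup.card_map_of_injective L.subtype_injective
      have h2 : C.map L.subtype ≤ K := by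
        rintro _ ⟨x, hx, rfl⟩
        exact hCK x hx
      rw [← h1] at h
      exact h.trans (Subgroup.card_dvd_of_le h2)
    -- `|N|` divides `|LN|`
    have hNdvd : Nat.card N ∣ Nat.card LN := by
      have h1 : LN.map π = N := by
        rw [hLN, Subgroup.map_comap_eq_self_of_surjective hπ]
      have h2 : Nat.card (LN.map π) ∣ Nat.card LN := Subgroup.card_map_dvd _ _
      rwa [h1] at h2
    have hp1 : p ^ (Nat.card N).factorization p ∣ Nat.card LN := (Nat.ordProj_dvd _ _).trans hNdvd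
    let ψ' : LN →* MulAut T := ψ.comp LN.subtype
    have hker : Nat.card ψ'.ker = Nat.card C := by
      have h1 : ψ'.ker.map LN.subtype = C := by
        ext x
        constructor
        · rintro ⟨y, hy, rfl⟩
          exact ⟨hy, y.2⟩
        · rintro ⟨h1, h2⟩
          exact ⟨⟨x, h2⟩, h1, rfl⟩
      rw [← h1, Subgroup.card_map_of_injective LN.subtype_injective]
    have hmul : Nat.card ψ'.ker * ψ'.ker.index = Nat.card LN := Subgroup.card_mul_index _
    have h3 : p ^ (Nat.card N).factorization p ∣ ψ'.ker.index := by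
      rw [← hmul, hker] at hp1
      refine Nat.Coprime.dvd_of_dvd_mul_left ?_ hp1
      exact Nat.Coprime.pow_left _ ((Nat.Prime.coprime_iff_not_dvd hp).mpr hpC)
    have h4 : ψ'.ker.index ∣ Nat.card (MulAut T) := by
      rw [Subgroup.index_ker]
      exact Subgroup.card_subgroup_dvd_card _
    have h5 := pow_le_of_dvd_mulAut hp ht hpt hTp (h3.trans h4)
    exact h5.trans (Nat.pow_le_pow_left hTcard 3)
  · exfalso
    have hCeq : C.map π = N := by
      apply le_antisymm hCN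
      intro x hx
      have h1 : (⟨x, hx⟩ : N) ∈ (C.map π).subgroupOf N := by rw [htop]; exact mem_top _
      exact h1
    have hsC : s ∣ Nat.card C := by
      have h1 : Nat.card (C.map π) ∣ Nat.card C := Subgroup.card_map_dvd _ _
      rw [hCeq] at h1
      exact hsN.trans h1
    refine false_of_subgroups hs ht hst hna (A := C.map L.subtype) (B := T) ?_ ?_ hTt
    · rintro _ ⟨x, hx, rfl⟩ b hb
      have h1 : ψ x = 1 := hx.1
      have h2 := congrArg (fun f : MulAut T => ((f ⟨b, hb⟩ : T) : G)) h1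
      have h3 : (x : G) * b * (x : G)⁻¹ = b := h2
      exact mul_inv_eq_iff_eq_mul.mp h3
    · rw [Subgroup.card_map_of_injective L.subtype_injective]
      exact hsC

end Cfsg.Agent.H363.Master
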