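import Mathlib
import Cfsg.Agent.H902.SameD

/-!
# The simple section of a group with the order of `PSL_n(q)`: arithmetic
-/

set_option autoImplicit false

namespace Cfsg.Agent.H363.PslArith

open Cfsg.Agent.H902.Art Cfsg.Agent.H902 Cfsg.Agent.Lib.Zsigmondy

/-- the hypotheses -/
structure Hyp (X : Sh) (p g H n f : ℕ) : Prop where
  real : Real X p g H
  hn : 4 ≤ n
  hf : 1 ≤ f
  div : ∀ l : ℕ, l.Prime → l ≠ p → l ∣ H → ∃ i, 1 ≤ i ∧ i ≤ n ∧ orderOf (p : ZMod l) ∣ f * i
  le : 2 * (g * NN X) ≤ f * (n * (n - 1))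
  lt : f * (n * (n - 1)) < 4 * (g * NN X)
  ex : p = 2 → 7 ≤ f * n ∧ f * (n - 1) ≠ 6

variable {X : Sh} {p g H n f : ℕ}

theorem Hyp.ex5 (h : Hyp X p g H n f) (hp : p = 2) : 7 ≤ f * (n - 1) := by
  obtain ⟨h1, h2⟩ := h.ex hp
  have hn := h.hn
  have hf := h.hf
  by_contra hcon
  have h3 : f * 3 ≤ f * (n - 1) := Nat.mul_le_mul_left f (by omega)
  have h4 : f = 1 := by omega
  subst h4
  omega

theorem Hyp.zD (h : Hyp X p g H n f) (h3 : f * (n - 1) ≤ g * DM X) :
    ∃ l i, l.Prime ∧ orderOf (p : ZMod l) = g * DM X ∧ l ∣ H ∧ 1 ≤ i ∧ i ≤ n ∧ g * DM X ∣ f * i := by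
  have hn := h.hn
  have hf := h.hf
  have hp := h.real.hp
  have h4 : 1 * 3 ≤ f * (n - 1) := Nat.mul_le_mul hf (by omega)
  obtain ⟨l, hl, hlo⟩ := exists_prime_orderOf (a := p) (n := g * DM X) hp.two_le (by omega)
    (fun h5 => by omega) (fun h5 => by have := h.ex5 h5.1; omega)
  have hlH := h.real.dvd_of_order_DM hl hlo (by omega)
  have hlp : l ≠ p := ne_of_order hl (n := g * DM X) (by omega) hlo
  obtain ⟨i, h5, h6, h7⟩ := h.div l hl hlp hlH
  rw [hlo] at h7
  exact ⟨l, i, hl, hlo, hlH, h5, h6, h7⟩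

theorem Hyp.zB (h : Hyp X p g H n f) (hB : DM X < 2 * BM X) (h3 : 3 ≤ g * BM X)
    (h6 : p = 2 → g * BM X ≠ 6) :
    ∃ l i, l.Prime ∧ orderOf (p : ZMod l) = g * BM X ∧ l ∣ H ∧ 1 ≤ i ∧ i ≤ n ∧ g * BM X ∣ f * i := by
  have hp := h.real.hp
  obtain ⟨l, hl, hlo⟩ := exists_prime_orderOf (a := p) (n := g * BM X) hp.two_le (by omega)
    (fun h5 => by omega) (fun h5 => h6 h5.1 h5.2)
  have hlH := h.real.dvd_of_order_BM hl hB hlo h3
  have hlp : l ≠ p := ne_of_order hl (n := g * BM X) (by omega) hlo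
  obtain ⟨i, h5, h6, h7⟩ := h.div l hl hlp hlH
  rw [hlo] at h7
  exact ⟨l, i, hl, hlo, hlH, h5, h6, h7⟩

/-- `f * m` divides the order of `p` modulo a prime divisor of `H`: a bound for `g * DM`. -/
theorem le_DM (h : Real X p g H) {r m : ℕ} (hr : r.Prime) (hm : 1 ≤ m)
    (ho : orderOf (p : ZMod r) = m) (hrH : r ∣ H) : m ≤ g * DM X := by
  have hg := h.hf
  have hrp : r ≠ p := ne_of_order hr hm ho
  have hB := BM_lt h
  rcases h.order_cases hr hrp hrH with h1 | ⟨e, he1, he2, h1⟩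
  · rw [ho] at h1
    exact Nat.le_of_dvd (Nat.mul_pos (by omega) (by omega)) h1
  · rw [ho] at h1
    exact (Nat.le_of_dvd (Nat.mul_pos (by omega) (by omega)) h1).trans
      (Nat.mul_le_mul_left g (by omega))

theorem Hyp.DM_eq (h : Hyp X p g H n f) {r : ℕ} (hr : r.Prime)
    (ho : orderOf (p : ZMod r) = f * n) (hrH : r ∣ H) : g * DM X = f * n := by
  have hn := h.hn
  have hf := h.hf
  have h1 := le_DM h.real hr (Nat.mul_pos (by omega) (by omega)) ho hrH
  have h2 : f * (n - 1) ≤ f * n := Nat.mul_le_mul_left f (by omega)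
  obtain ⟨l, i, -, -, -, h3, h4, h5⟩ := h.zD (h2.trans h1)
  have h6 := Nat.le_of_dvd (Nat.mul_pos (by omega) (by omega)) h5
  have h7 : f * i ≤ f * n := Nat.mul_le_mul_left f h4
  omega

theorem Hyp.BM_eq (h : Hyp X p g H n f) (hD : g * DM X = f * n) {s : ℕ} (hs : s.Prime)
    (ho : orderOf (p : ZMod s) = f * (n - 1)) (hsH : s ∣ H) :
    DM X < 2 * BM X ∧ g * BM X = f * (n - 1) := by
  have hn := h.hn
  have hf := h.hf
  have hg := h.real.hf
  have hf1 : 0 < f * (n - 1) := Nat.mul_pos (by omega) (by omega)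
  have hsp : s ≠ p := ne_of_order hs hf1 ho
  have hBl := BM_lt h.real
  have e1 : f * n = f * (n - 1) + f := by
    obtain ⟨k, rfl⟩ : ∃ k, n = k + 1 := ⟨n - 1, by omega⟩
    rw [Nat.add_sub_cancel]; ring
  have h3f : f * 3 ≤ f * (n - 1) := Nat.mul_le_mul_left f (by omega)
  have h1 : f * (n - 1) ≤ g * BM X := by
    rcases h.real.order_cases hs hsp hsH with h1 | ⟨e, he1, he2, h1⟩
    · exfalso
      rw [ho, hD, e1] at h1
      have h2 := (Nat.dvd_add_right (dvd_refl (f * (n - 1)))).mp h1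
      have := Nat.le_of_dvd (by omega) h2
      omega
    · rw [ho] at h1
      exact (Nat.le_of_dvd (Nat.mul_pos (by omega) (by omega)) h1).trans
        (Nat.mul_le_mul_left g he2)
  have hlt : g * BM X < g * DM X := Nat.mul_lt_mul_of_pos_left hBl (by omega)
  have hB : DM X < 2 * BM X := by
    by_contra hcon
    have h2 : g * (2 * BM X) ≤ g * DM X := Nat.mul_le_mul_left g (by omega)
    have h3 : g * (2 * BM X) = 2 * (g * BM X) := by ring
    omega
  refine ⟨hB, ?_⟩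
  obtain ⟨l, i, -, -, -, h3, h4, h5⟩ := h.zB hB (by omega) (fun hp => by have := h.ex5 hp; omega)
  rcases Nat.lt_or_ge i n with h6 | h6
  · have h7 := Nat.le_of_dvd (Nat.mul_pos (by omega) (by omega)) h5
    have h8 : f * i ≤ f * (n - 1) := Nat.mul_le_mul_left f (by omega)
    omega
  · exfalso
    have : i = n := by omega
    subst this
    obtain ⟨c, hc⟩ := h5
    have hc2 : 2 ≤ c := by
      by_contra hcon
      have : c = 0 ∨ c = 1 := by omega
      rcases this with rfl | rfl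
      · rw [mul_zero] at hc; omega
      · rw [mul_one] at hc; omega
    have h8 : g * BM X * 2 ≤ g * BM X * c := Nat.mul_le_mul_left _ hc2
    omega

/-- **Both primes divide the order.** -/
theorem Hyp.caseA (h : Hyp X p g H n f) {r s : ℕ} (hr : r.Prime)
    (hro : orderOf (p : ZMod r) = f * n) (hrH : r ∣ H) (hs : s.Prime)
    (hso : orderOf (p : ZMod s) = f * (n - 1)) (hsH : s ∣ H) :
    (X = .L n ∧ g = f) ∨ (X = .DD n ∧ 2 * g = f) := by
  have hn := h.hn
  have hf := h.hf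
  have hg := h.real.hf
  have hD := h.DM_eq hr hro hrH
  obtain ⟨hB, hBe⟩ := h.BM_eq hD hs hso hsH
  have hBl := BM_lt h.real
  have h4 := four_NN h.real
  have hle := h.le
  obtain ⟨k, rfl⟩ : ∃ k, n = k + 1 := ⟨n - 1, by omega⟩
  rw [Nat.add_sub_cancel] at *
  -- `g δ = f`
  have hδ : g * (DM X - BM X) = f := by
    rw [Nat.mul_sub, hD, hBe, Nat.mul_add, mul_one]; omega
  have hDδ : DM X = (DM X - BM X) * (k + 1) := by
    apply Nat.eq_of_mul_eq_mul_left hg
    rw [hD, ← mul_assoc, hδ]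
  have hk : kap X ≤ 2 * k := by
    have h5 : f * (k + 1) * kap X ≤ f * (k + 1) * (2 * k) := by
      calc f * (k + 1) * kap X = g * DM X * kap X := by rw [hD]
        _ = g * (4 * NN X) := by rw [h4]; ring
        _ = 2 * (2 * (g * NN X)) := by ring
        _ ≤ 2 * (f * ((k + 1) * k)) := Nat.mul_le_mul_left 2 hle
        _ = f * (k + 1) * (2 * k) := by ring
    exact Nat.le_of_mul_le_mul_left h5 (Nat.mul_pos hf (by omega))
  have ht := typA h.real hB
  generalize DM X - BM X = d at *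
  generalize DM X = D at *
  generalize kap X = κ at *
  cases ht with
  | L m hm => left; refine ⟨by congr 1; omega, by omega⟩
  | C m hm => exfalso; omega
  | U4 => exfalso; omega
  | Ue m hm => exfalso; omega
  | Uo m hm => exfalso; omega
  | D m hm => exfalso; omega
  | DD m hm => right; refine ⟨by congr 1; omega, by omega⟩
  | F4 => exfalso; omega
  | E6 => exfalso; omega
  | E7 => exfalso; omega
  | E8 => exfalso; omega
  | TE6 => exfalso; omega

/-- `TypA` with explicit equations -/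
inductive CaseT (X : Sh) (D d κ : ℕ) : Prop
  | L (m : ℕ) (h : 3 ≤ m) (hX : X = .L m) (hD : D = m) (hd : d = 1) (hk : κ = 2 * m - 2)
  | C (m : ℕ) (h : 3 ≤ m) (hX : X = .C m) (hD : D = 2 * m) (hd : d = 2) (hk : κ = 2 * m)
  | U4 (hD : D = 6) (hd : d = 2) (hk : κ = 4)
  | Ue (m : ℕ) (h : 3 ≤ m) (hD : D = 4 * m - 2) (hd : d = 4) (hk : κ = 2 * m)
  | Uo (m : ℕ) (h : 2 ≤ m) (hD : D = 4 * m + 2) (hd : d = 4) (hk : κ = 2 * m)
  | D (m : ℕ) (h : 4 ≤ m) (hX : X = .D m) (hD : D = 2 * m - 2) (hd : d = 2) (hk : κ = 2 * m)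
  | DD (m : ℕ) (h : 4 ≤ m) (hX : X = .DD m) (hD : D = 2 * m) (hd : d = 2) (hk : κ = 2 * m - 2)
  | F4 (hD : D = 12) (hd : d = 4) (hk : κ = 8)
  | E6 (hD : D = 12) (hd : d = 3) (hk : κ = 12)
  | E7 (hD : D = 18) (hd : d = 4) (hk : κ = 14)
  | E8 (hD : D = 30) (hd : d = 6) (hk : κ = 16)
  | TE6 (hD : D = 18) (hd : d = 6) (hk : κ = 8)

theorem toT {X : Sh} {D d κ : ℕ} (h : TypA X D d κ) : CaseT X D d κ := by
  cases h with
  | L _ h => exact .L _ h rfl rfl rfl rfl
  | C _ h => exact .C _ h rfl rfl rfl rfl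
  | U4 => exact .U4 rfl rfl rfl
  | Ue _ h => exact .Ue _ h rfl rfl rfl
  | Uo _ h => exact .Uo _ h rfl rfl rfl
  | D _ h => exact .D _ h rfl rfl rfl rfl
  | DD _ h => exact .DD _ h rfl rfl rfl rfl
  | F4 => exact .F4 rfl rfl rfl
  | E6 => exact .E6 rfl rfl rfl
  | E7 => exact .E7 rfl rfl rfl
  | E8 => exact .E8 rfl rfl rfl
  | TE6 => exact .TE6 rfl rfl rfl

theorem typB_le {X : Sh} {D κ : ℕ} (h : TypB X D κ) : κ ≤ 4 := by
  cases h <;> omega

/-! ### Arithmetic of case B1 -/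

theorem nlB1_L {n i c : ℕ} (hn : 4 ≤ n) (hi : i ≤ n) (hc : 1 ≤ c)
    (h : i * (n + 1) = (n - 1) * n * c) : False := by
  obtain ⟨m, rfl⟩ : ∃ m, n = m + 2 := ⟨n - 2, by omega⟩
  rw [show m + 2 - 1 = m + 1 by omega] at h
  rcases (by omega : i ≤ m ∨ i = m + 1 ∨ i = m + 2) with h1 | rfl | rfl
  · have h2 : i * (m + 2 + 1) ≤ m * (m + 2 + 1) := Nat.mul_le_mul_right _ h1
    have h3 : (m + 1) * (m + 2) * 1 ≤ (m + 1) * (m + 2) * c := Nat.mul_le_mul_left _ hc
    nlinarith
  · have h2 : m + 3 = (m + 2) * c := by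
      apply Nat.eq_of_mul_eq_mul_left (show 0 < m + 1 by omega)
      rw [← mul_assoc, ← h]
    rcases (by omega : c = 1 ∨ 2 ≤ c) with rfl | hc2
    · omega
    · have : (m + 2) * 2 ≤ (m + 2) * c := Nat.mul_le_mul_left _ hc2
      omega
  · have h2 : m + 3 = (m + 1) * c := by
      apply Nat.eq_of_mul_eq_mul_left (show 0 < m + 2 by omega)
      rw [show (m + 2) * (m + 3) = (m + 2) * (m + 2 + 1) by ring, h]; ring
    rcases (by omega : c = 1 ∨ 2 ≤ c) with rfl | hc2
    · omega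
    · have : (m + 1) * 2 ≤ (m + 1) * c := Nat.mul_le_mul_left _ hc2
      omega

theorem nlB1_C {n i c : ℕ} (hn : 4 ≤ n) (hi : i ≤ n) (hc : 1 ≤ c)
    (h : i * n = (n - 1) * (n - 1) * c) : False := by
  obtain ⟨m, rfl⟩ : ∃ m, n = m + 2 := ⟨n - 2, by omega⟩
  rw [show m + 2 - 1 = m + 1 by omega] at h
  rcases (by omega : i ≤ m ∨ i = m + 1 ∨ i = m + 2) with h1 | rfl | rfl
  · have h2 : i * (m + 2) ≤ m * (m + 2) := Nat.mul_le_mul_right _ h1
    have h3 : (m + 1) * (m + 1) * 1 ≤ (m + 1) * (m + 1) * c := Nat.mul_le_mul_left _ hc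
    nlinarith
  · have h2 : m + 2 = (m + 1) * c := by
      apply Nat.eq_of_mul_eq_mul_left (show 0 < m + 1 by omega)
      rw [← mul_assoc, ← h]
    rcases (by omega : c = 1 ∨ 2 ≤ c) with rfl | hc2
    · omega
    · have : (m + 1) * 2 ≤ (m + 1) * c := Nat.mul_le_mul_left _ hc2
      omega
  · rcases (by omega : c = 1 ∨ 2 ≤ c) with rfl | hc2
    · nlinarith
    · have : (m + 1) * (m + 1) * 2 ≤ (m + 1) * (m + 1) * c := Nat.mul_le_mul_left _ hc2
      nlinarith

theorem nlB1_Ue {n i c : ℕ} (hn : 4 ≤ n) (hi : i ≤ n) (hc : 1 ≤ c)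
    (h : i * (2 * n - 1) = (n - 1) * (2 * n - 3) * c) : False := by
  obtain ⟨m, rfl⟩ : ∃ m, n = m + 2 := ⟨n - 2, by omega⟩
  rw [show m + 2 - 1 = m + 1 by omega, show 2 * (m + 2) - 1 = 2 * m + 3 by omega,
    show 2 * (m + 2) - 3 = 2 * m + 1 by omega] at h
  rcases (by omega : i ≤ m ∨ i = m + 1 ∨ i = m + 2) with h1 | rfl | rfl
  · have h2 : i * (2 * m + 3) ≤ m * (2 * m + 3) := Nat.mul_le_mul_right _ h1
    have h3 : (m + 1) * (2 * m + 1) * 1 ≤ (m + 1) * (2 * m + 1) * c := Nat.mul_le_mul_left _ hc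
    nlinarith
  · have h2 : 2 * m + 3 = (2 * m + 1) * c := by
      apply Nat.eq_of_mul_eq_mul_left (show 0 < m + 1 by omega)
      rw [← mul_assoc, ← h]
    rcases (by omega : c = 1 ∨ 2 ≤ c) with rfl | hc2
    · omega
    · have : (2 * m + 1) * 2 ≤ (2 * m + 1) * c := Nat.mul_le_mul_left _ hc2
      omega
  · rcases (by omega : c = 1 ∨ 2 ≤ c) with rfl | hc2
    · nlinarith
    · have : (m + 1) * (2 * m + 1) * 2 ≤ (m + 1) * (2 * m + 1) * c := Nat.mul_le_mul_left _ hc2
      nlinarith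

theorem nlB1_Uo {n i c : ℕ} (hn : 4 ≤ n) (hi : i ≤ n) (hc : 1 ≤ c)
    (h : i * (2 * n + 1) = (n - 1) * (2 * n - 1) * c) : False := by
  obtain ⟨m, rfl⟩ : ∃ m, n = m + 2 := ⟨n - 2, by omega⟩
  rw [show m + 2 - 1 = m + 1 by omega, show 2 * (m + 2) - 1 = 2 * m + 3 by omega,
    show 2 * (m + 2) + 1 = 2 * m + 5 by omega] at h
  rcases (by omega : i ≤ m ∨ i = m + 1 ∨ i = m + 2) with h1 | rfl | rfl
  · have h2 : i * (2 * m + 5) ≤ m * (2 * m + 5) := Nat.mul_le_mul_right _ h1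
    have h3 : (m + 1) * (2 * m + 3) * 1 ≤ (m + 1) * (2 * m + 3) * c := Nat.mul_le_mul_left _ hc
    nlinarith
  · have h2 : 2 * m + 5 = (2 * m + 3) * c := by
      apply Nat.eq_of_mul_eq_mul_left (show 0 < m + 1 by omega)
      rw [← mul_assoc, ← h]
    rcases (by omega : c = 1 ∨ 2 ≤ c) with rfl | hc2
    · omega
    · have : (2 * m + 3) * 2 ≤ (2 * m + 3) * c := Nat.mul_le_mul_left _ hc2
      omega
  · rcases (by omega : c = 1 ∨ 2 ≤ c) with rfl | hc2
    · nlinarith
    · have : (m + 1) * (2 * m + 3) * 2 ≤ (m + 1) * (2 * m + 3) * c := Nat.mul_le_mul_left _ hc2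
      nlinarith

/-- cross multiplication -/
theorem cross_B1 {g D B f n i : ℕ} (hf : 1 ≤ f) (hi : 1 ≤ i) (hD : g * D = f * (n - 1)) (hg : 1 ≤ g)
    (h : g * B ∣ f * i) : ∃ c, 1 ≤ c ∧ i * D = (n - 1) * B * c := by
  obtain ⟨c, hc⟩ := h
  refine ⟨c, ?_, ?_⟩
  · rw [Nat.one_le_iff_ne_zero]
    rintro rfl
    rw [mul_zero] at hc
    have := Nat.mul_pos hf hi
    omega
  · apply Nat.eq_of_mul_eq_mul_left hf
    apply Nat.eq_of_mul_eq_mul_left hg
    calc g * (f * (i * D)) = (f * i) * (g * D) := by ring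
      _ = g * B * c * (f * (n - 1)) := by rw [hc, hD]
      _ = g * (f * ((n - 1) * B * c)) := by ring

theorem cross_B2 {g D B f n i : ℕ} (hf : 1 ≤ f) (hi : 1 ≤ i) (hD : g * D = f * n) (hg : 1 ≤ g)
    (h : g * B ∣ f * i) : ∃ c, 1 ≤ c ∧ i * D = n * B * c := by
  have h1 : g * D = f * (n + 1 - 1) := by rw [Nat.add_sub_cancel]; exact hD
  obtain ⟨c, hc, h2⟩ := cross_B1 hf hi h1 hg h
  rw [Nat.add_sub_cancel] at h2
  exact ⟨c, hc, h2⟩

set_option maxHeartbeats 1000000 in
/-- **Only the prime for `n - 1` divides the order.** -/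
theorem Hyp.caseB1 (h : Hyp X p g H n f) (hno : ∀ l : ℕ, l.Prime → orderOf (p : ZMod l) = f * n → ¬ l ∣ H)
    (hnd : f * n ∣ g * NN X) {s : ℕ} (hs : s.Prime)
    (hso : orderOf (p : ZMod s) = f * (n - 1)) (hsH : s ∣ H) : X = .D n ∧ 2 * g = f := by
  have hn := h.hn
  have hf := h.hf
  have hg := h.real.hf
  have hf1 : 0 < f * (n - 1) := Nat.mul_pos (by omega) (by omega)
  have hDM1 := le_DM h.real hs hf1 hso hsH
  obtain ⟨l, i, hl, hlo, hlH, h3, h4, h5⟩ := h.zD hDM1
  have hne : g * DM X ≠ f * n := fun h0 => hno l hl (by rw [hlo, h0]) hlH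
  have hfn : f * n = f * (n - 1) + f := by
    obtain ⟨k, rfl⟩ : ∃ k, n = k + 1 := ⟨n - 1, by omega⟩
    rw [Nat.add_sub_cancel]; ring
  have hf3 : f * 3 ≤ f * (n - 1) := Nat.mul_le_mul_left f (by omega)
  have hD : g * DM X = f * (n - 1) := by
    rcases Nat.lt_or_ge i n with h6 | h6
    · have h7 := Nat.le_of_dvd (Nat.mul_pos (by omega) (by omega)) h5
      have h8 : f * i ≤ f * (n - 1) := Nat.mul_le_mul_left f (by omega)
      omega
    · exfalso
      have : i = n := by omega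
      subst this
      obtain ⟨c, hc⟩ := h5
      have hc2 : 2 ≤ c := by
        by_contra hcon
        have : c = 0 ∨ c = 1 := by omega
        rcases this with rfl | rfl
        · rw [mul_zero] at hc; omega
        · rw [mul_one] at hc; omega
      have h8 : g * DM X * 2 ≤ g * DM X * c := Nat.mul_le_mul_left _ hc2
      omega
  have h4N := four_NN h.real
  have hle := h.le
  have hlt := h.lt
  have e4 : 4 * (g * NN X) = f * (n - 1) * kap X := by
    calc 4 * (g * NN X) = g * (4 * NN X) := by ring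
      _ = g * DM X * kap X := by rw [h4N]; ring
      _ = _ := by rw [hD]
  have hk1 : kap X ≤ 2 * n := by
    have h5 : f * (n - 1) * kap X ≤ f * (n - 1) * (2 * n) := by
      calc f * (n - 1) * kap X = 2 * (2 * (g * NN X)) := by rw [← e4]; ring
        _ ≤ 2 * (f * (n * (n - 1))) := Nat.mul_le_mul_left 2 hle
        _ = f * (n - 1) * (2 * n) := by ring
    exact Nat.le_of_mul_le_mul_left h5 hf1
  have hk2 : n < kap X := by
    have h5 : f * (n - 1) * n < f * (n - 1) * kap X := by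
      calc f * (n - 1) * n = f * (n * (n - 1)) := by ring
        _ < 4 * (g * NN X) := hlt
        _ = _ := e4
    exact Nat.lt_of_mul_lt_mul_left h5
  obtain ⟨c, hc⟩ := hnd
  have hc1 : 4 * n * c = (n - 1) * kap X := by
    apply Nat.eq_of_mul_eq_mul_left hf
    calc f * (4 * n * c) = 4 * (f * n * c) := by ring
      _ = 4 * (g * NN X) := by rw [hc]
      _ = f * ((n - 1) * kap X) := by rw [e4]; ring
  have hcop : Nat.Coprime n (n - 1) := by
    obtain ⟨k, rfl⟩ : ∃ k, n = k + 1 := ⟨n - 1, by omega⟩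
    rw [Nat.add_sub_cancel]
    exact (Nat.coprime_self_add_left (m := k) (n := 1)).mpr (Nat.coprime_one_left k)
  have hnk : n ∣ kap X := hcop.dvd_of_dvd_mul_left ⟨4 * c, by rw [← hc1]; ring⟩
  have hk : kap X = 2 * n := by
    obtain ⟨a, ha⟩ := hnk
    have ha2 : 2 ≤ a := by
      by_contra hcon
      have : a ≤ 1 := by omega
      have : n * a ≤ n * 1 := Nat.mul_le_mul_left n this
      omega
    have : n * 2 ≤ n * a := Nat.mul_le_mul_left n ha2
    omega
  have hodd : n = 2 * c + 1 := by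
    rw [hk] at hc1
    have h5 : 2 * n * (2 * c) = 2 * n * (n - 1) := by
      calc 2 * n * (2 * c) = 4 * n * c := by ring
        _ = _ := hc1
        _ = _ := by ring
    have := Nat.eq_of_mul_eq_mul_left (show 0 < 2 * n by omega) h5
    omega
  have hn5 : 5 ≤ n := by omega
  by_cases hB : DM X < 2 * BM X
  · have hBl := BM_lt h.real
    have hzB : ∀ b, b = BM X → 7 ≤ b → ∃ i c, 1 ≤ c ∧ i ≤ n ∧ i * DM X = (n - 1) * b * c := by
      rintro b rfl h7
      have h8 : 1 * BM X ≤ g * BM X := Nat.mul_le_mul_right _ hg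
      obtain ⟨l', i', -, -, -, h9, h10, h11⟩ := h.zB hB (by omega) (fun _ => by omega)
      obtain ⟨c', hc', h12⟩ := cross_B1 hf h9 hD hg h11
      exact ⟨i', c', hc', h10, h12⟩
    have two : ∀ a b : ℕ, 2 * a = 2 * b → a = b := fun a b hab => by omega
    rcases toT (typA h.real hB) with ⟨m, hm, hX, h1, h2, h3⟩ | ⟨m, hm, hX, h1, h2, h3⟩ | ⟨h1, h2, h3⟩ |
      ⟨m, hm, h1, h2, h3⟩ | ⟨m, hm, h1, h2, h3⟩ | ⟨m, hm, hX, h1, h2, h3⟩ | ⟨m, hm, hX, h1, h2, h3⟩ |
      ⟨h1, h2, h3⟩ | ⟨h1, h2, h3⟩ | ⟨h1, h2, h3⟩ | ⟨h1, h2, h3⟩ | ⟨h1, h2, h3⟩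
    · exfalso
      have hDn : DM X = n + 1 := by omega
      rcases Nat.lt_or_ge n 7 with h7 | h7
      · -- `n = 5`
        have hB5 : BM X = 5 := by omega
        have hg6 : g * BM X ≠ 6 := by rw [hB5]; omega
        obtain ⟨l', i', -, -, -, h9, h10, h11⟩ := h.zB hB (by rw [hB5]; omega) (fun _ => hg6)
        obtain ⟨c', hc', h12⟩ := cross_B1 hf h9 hD hg h11
        refine nlB1_L hn h10 hc' ?_
        rw [hDn] at h12
        rw [h12]
        congr 2
        omega
      · obtain ⟨i', c', hc', h10, h12⟩ := hzB n (by omega) h7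
        rw [hDn] at h12
        exact nlB1_L hn h10 hc' h12
    · exfalso
      have hDn : DM X = 2 * n := by omega
      obtain ⟨i', c', hc', h10, h12⟩ := hzB (2 * (n - 1)) (by omega) (by omega)
      rw [hDn] at h12
      refine nlB1_C hn h10 hc' (two _ _ ?_)
      calc 2 * (i' * n) = i' * (2 * n) := by ring
        _ = _ := h12
        _ = _ := by ring
    · exfalso; omega
    · exfalso
      have hDn : DM X = 2 * (2 * n - 1) := by omega
      obtain ⟨i', c', hc', h10, h12⟩ := hzB (2 * (2 * n - 3)) (by omega) (by omega)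
      rw [hDn] at h12
      refine nlB1_Ue hn h10 hc' (two _ _ ?_)
      calc 2 * (i' * (2 * n - 1)) = i' * (2 * (2 * n - 1)) := by ring
        _ = _ := h12
        _ = _ := by ring
    · exfalso
      have hDn : DM X = 2 * (2 * n + 1) := by omega
      obtain ⟨i', c', hc', h10, h12⟩ := hzB (2 * (2 * n - 1)) (by omega) (by omega)
      rw [hDn] at h12
      refine nlB1_Uo hn h10 hc' (two _ _ ?_)
      calc 2 * (i' * (2 * n + 1)) = i' * (2 * (2 * n + 1)) := by ring
        _ = _ := h12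
        _ = _ := by ring
    · have hmn : m = n := by omega
      refine ⟨by rw [hX, hmn], ?_⟩
      have hDn : DM X = 2 * (n - 1) := by omega
      rw [hDn] at hD
      apply Nat.eq_of_mul_eq_mul_left (show 0 < n - 1 by omega)
      calc (n - 1) * (2 * g) = g * (2 * (n - 1)) := by ring
        _ = _ := hD
        _ = _ := by ring
    · exfalso
      have hDn : DM X = 2 * (n + 1) := by omega
      obtain ⟨i', c', hc', h10, h12⟩ := hzB (2 * n) (by omega) (by omega)
      rw [hDn] at h12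
      refine nlB1_L hn h10 hc' (two _ _ ?_)
      calc 2 * (i' * (n + 1)) = i' * (2 * (n + 1)) := by ring
        _ = _ := h12
        _ = _ := by ring
    · exfalso; omega
    · exfalso; omega
    · exfalso
      have hn7 : n = 7 := by omega
      obtain ⟨i', c', hc', h10, h12⟩ := hzB 14 (by omega) (by omega)
      rw [hn7, h1] at h12
      rw [hn7] at h10
      omega
    · exfalso; omega
    · exfalso; omega
  · exfalso
    have := typB_le (typB h.real hB)
    omega

/-! ### Arithmetic of case B2 -/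

theorem nlB2_C {n i c : ℕ} (hn : 4 ≤ n) (hi : i ≤ n) (hc : 1 ≤ c)
    (h : i * (n - 1) = n * (n - 2) * c) : False := by
  obtain ⟨m, rfl⟩ : ∃ m, n = m + 2 := ⟨n - 2, by omega⟩
  rw [show m + 2 - 1 = m + 1 by omega, Nat.add_sub_cancel] at h
  rcases (by omega : i ≤ m ∨ i = m + 1 ∨ i = m + 2) with h1 | rfl | rfl
  · have h2 : i * (m + 1) ≤ m * (m + 1) := Nat.mul_le_mul_right _ h1
    have h3 : (m + 2) * m * 1 ≤ (m + 2) * m * c := Nat.mul_le_mul_left _ hc
    nlinarith
  · rcases (by omega : c = 1 ∨ 2 ≤ c) with rfl | hc2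
    · nlinarith
    · have : (m + 2) * m * 2 ≤ (m + 2) * m * c := Nat.mul_le_mul_left _ hc2
      nlinarith
  · have h2 : m + 1 = m * c := by
      apply Nat.eq_of_mul_eq_mul_left (show 0 < m + 2 by omega)
      rw [← mul_assoc, ← h]
    rcases (by omega : c = 1 ∨ 2 ≤ c) with rfl | hc2
    · omega
    · have : m * 2 ≤ m * c := Nat.mul_le_mul_left _ hc2
      omega

theorem nlB2_Ue {n i c : ℕ} (hn : 4 ≤ n) (hi : i ≤ n) (hc : 1 ≤ c)
    (h : i * (2 * n - 3) = n * (2 * n - 5) * c) : False := by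
  obtain ⟨m, rfl⟩ : ∃ m, n = m + 4 := ⟨n - 4, by omega⟩
  rw [show 2 * (m + 4) - 3 = 2 * m + 5 by omega, show 2 * (m + 4) - 5 = 2 * m + 3 by omega] at h
  rcases (by omega : i ≤ m + 2 ∨ i = m + 3 ∨ i = m + 4) with h1 | rfl | rfl
  · have h2 : i * (2 * m + 5) ≤ (m + 2) * (2 * m + 5) := Nat.mul_le_mul_right _ h1
    have h3 : (m + 4) * (2 * m + 3) * 1 ≤ (m + 4) * (2 * m + 3) * c := Nat.mul_le_mul_left _ hc
    nlinarith
  · rcases (by omega : c = 1 ∨ 2 ≤ c) with rfl | hc2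
    · nlinarith
    · have : (m + 4) * (2 * m + 3) * 2 ≤ (m + 4) * (2 * m + 3) * c := Nat.mul_le_mul_left _ hc2
      nlinarith
  · have h2 : 2 * m + 5 = (2 * m + 3) * c := by
      apply Nat.eq_of_mul_eq_mul_left (show 0 < m + 4 by omega)
      rw [← mul_assoc, ← h]
    rcases (by omega : c = 1 ∨ 2 ≤ c) with rfl | hc2
    · omega
    · have : (2 * m + 3) * 2 ≤ (2 * m + 3) * c := Nat.mul_le_mul_left _ hc2
      omega

theorem nlB2_Uo {n i c : ℕ} (hn : 4 ≤ n) (hi : i ≤ n) (hc : 1 ≤ c)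
    (h : i * (2 * n - 1) = n * (2 * n - 3) * c) : False := by
  obtain ⟨m, rfl⟩ : ∃ m, n = m + 4 := ⟨n - 4, by omega⟩
  rw [show 2 * (m + 4) - 3 = 2 * m + 5 by omega, show 2 * (m + 4) - 1 = 2 * m + 7 by omega] at h
  rcases (by omega : i ≤ m + 2 ∨ i = m + 3 ∨ i = m + 4) with h1 | rfl | rfl
  · have h2 : i * (2 * m + 7) ≤ (m + 2) * (2 * m + 7) := Nat.mul_le_mul_right _ h1
    have h3 : (m + 4) * (2 * m + 5) * 1 ≤ (m + 4) * (2 * m + 5) * c := Nat.mul_le_mul_left _ hc
    nlinarith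
  · rcases (by omega : c = 1 ∨ 2 ≤ c) with rfl | hc2
    · nlinarith
    · have : (m + 4) * (2 * m + 5) * 2 ≤ (m + 4) * (2 * m + 5) * c := Nat.mul_le_mul_left _ hc2
      nlinarith
  · have h2 : 2 * m + 7 = (2 * m + 5) * c := by
      apply Nat.eq_of_mul_eq_mul_left (show 0 < m + 4 by omega)
      rw [← mul_assoc, ← h]
    rcases (by omega : c = 1 ∨ 2 ≤ c) with rfl | hc2
    · omega
    · have : (2 * m + 5) * 2 ≤ (2 * m + 5) * c := Nat.mul_le_mul_left _ hc2
      omega

theorem nlB2_D {n i c : ℕ} (hn : 5 ≤ n) (hi : i ≤ n) (hc : 1 ≤ c)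
    (h : i * (n - 2) = n * (n - 3) * c) : False := by
  obtain ⟨m, rfl⟩ : ∃ m, n = m + 5 := ⟨n - 5, by omega⟩
  rw [show m + 5 - 2 = m + 3 by omega, show m + 5 - 3 = m + 2 by omega] at h
  rcases (by omega : i ≤ m + 3 ∨ i = m + 4 ∨ i = m + 5) with h1 | rfl | rfl
  · have h2 : i * (m + 3) ≤ (m + 3) * (m + 3) := Nat.mul_le_mul_right _ h1
    have h3 : (m + 5) * (m + 2) * 1 ≤ (m + 5) * (m + 2) * c := Nat.mul_le_mul_left _ hc
    nlinarith
  · rcases (by omega : c = 1 ∨ 2 ≤ c) with rfl | hc2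
    · nlinarith
    · have : (m + 5) * (m + 2) * 2 ≤ (m + 5) * (m + 2) * c := Nat.mul_le_mul_left _ hc2
      nlinarith
  · have h2 : m + 3 = (m + 2) * c := by
      apply Nat.eq_of_mul_eq_mul_left (show 0 < m + 5 by omega)
      rw [← mul_assoc, ← h]
    rcases (by omega : c = 1 ∨ 2 ≤ c) with rfl | hc2
    · omega
    · have : (m + 2) * 2 ≤ (m + 2) * c := Nat.mul_le_mul_left _ hc2
      omega

set_option maxHeartbeats 1000000 in
/-- **Only the prime for `n` divides the order.** -/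
theorem Hyp.caseB2 (h : Hyp X p g H n f)
    (hno : ∀ l : ℕ, l.Prime → orderOf (p : ZMod l) = f * (n - 1) → ¬ l ∣ H)
    (hnd : f * (n - 1) ∣ g * NN X) {r s : ℕ} (hr : r.Prime)
    (hro : orderOf (p : ZMod r) = f * n) (hrH : r ∣ H) (hs : s.Prime)
    (hso : orderOf (p : ZMod s) = f * (n - 1)) : False := by
  have hn := h.hn
  have hf := h.hf
  have hg := h.real.hf
  have hfn : 0 < f * n := Nat.mul_pos (by omega) (by omega)
  have hf3 : f * 3 ≤ f * (n - 1) := Nat.mul_le_mul_left f (by omega)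
  have hD := h.DM_eq hr hro hrH
  have h4N := four_NN h.real
  have hle := h.le
  have hlt := h.lt
  have e4 : 4 * (g * NN X) = f * n * kap X := by
    calc 4 * (g * NN X) = g * (4 * NN X) := by ring
      _ = g * DM X * kap X := by rw [h4N]; ring
      _ = _ := by rw [hD]
  have hk1 : kap X ≤ 2 * (n - 1) := by
    have h5 : f * n * kap X ≤ f * n * (2 * (n - 1)) := by
      calc f * n * kap X = 2 * (2 * (g * NN X)) := by rw [← e4]; ring
        _ ≤ 2 * (f * (n * (n - 1))) := Nat.mul_le_mul_left 2 hle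
        _ = f * n * (2 * (n - 1)) := by ring
    exact Nat.le_of_mul_le_mul_left h5 hfn
  have hk2 : n - 1 < kap X := by
    have h5 : f * n * (n - 1) < f * n * kap X := by
      calc f * n * (n - 1) = f * (n * (n - 1)) := by ring
        _ < 4 * (g * NN X) := hlt
        _ = _ := e4
    exact Nat.lt_of_mul_lt_mul_left h5
  obtain ⟨c, hc⟩ := hnd
  have hc1 : 4 * (n - 1) * c = n * kap X := by
    apply Nat.eq_of_mul_eq_mul_left hf
    calc f * (4 * (n - 1) * c) = 4 * (f * (n - 1) * c) := by ring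
      _ = 4 * (g * NN X) := by rw [hc]
      _ = f * (n * kap X) := by rw [e4]; ring
  have hcop : Nat.Coprime (n - 1) n := by
    obtain ⟨k, rfl⟩ : ∃ k, n = k + 1 := ⟨n - 1, by omega⟩
    rw [Nat.add_sub_cancel]
    exact (Nat.coprime_self_add_right (m := k) (n := 1)).mpr (Nat.coprime_one_right k)
  have hnk : (n - 1) ∣ kap X := hcop.dvd_of_dvd_mul_left ⟨4 * c, by rw [← hc1]; ring⟩
  have hk : kap X = 2 * (n - 1) := by
    obtain ⟨a, ha⟩ := hnk
    have ha2 : 2 ≤ a := by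
      by_contra hcon
      have : a ≤ 1 := by omega
      have : (n - 1) * a ≤ (n - 1) * 1 := Nat.mul_le_mul_left (n - 1) this
      omega
    have : (n - 1) * 2 ≤ (n - 1) * a := Nat.mul_le_mul_left (n - 1) ha2
    omega
  have heven : n = 2 * c := by
    rw [hk] at hc1
    have h5 : 2 * (n - 1) * (2 * c) = 2 * (n - 1) * n := by
      calc 2 * (n - 1) * (2 * c) = 4 * (n - 1) * c := by ring
        _ = _ := hc1
        _ = _ := by ring
    have := Nat.eq_of_mul_eq_mul_left (show 0 < 2 * (n - 1) by omega) h5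
    omega
  clear hlt hle hc hc1 hnk hcop e4 h4N
  by_cases hB : DM X < 2 * BM X
  · have hBl := BM_lt h.real
    -- `g * BM ≠ f (n - 1)`
    have hneB : g * BM X ≠ f * (n - 1) := fun h0 =>
      hno s hs hso (h.real.dvd_of_order_BM hs hB (by rw [hso, h0]) (by omega))
    have hzB : ∀ b, BM X = b → g * b ≠ 6 → 3 ≤ b → ∃ i c, 1 ≤ c ∧ i ≤ n ∧ i * DM X = n * b * c := by
      rintro b rfl h6 h7
      have h8 : 1 * BM X ≤ g * BM X := Nat.mul_le_mul_right _ hg
      obtain ⟨l', i', -, -, -, h9, h10, h11⟩ := h.zB hB (by omega) (fun _ => h6)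
      obtain ⟨c', hc', h12⟩ := cross_B2 hf h9 hD hg h11
      exact ⟨i', c', hc', h10, h12⟩
    have two : ∀ a b : ℕ, 2 * a = 2 * b → a = b := fun a b hab => by omega
    have hsmall : ∀ a : ℕ, g * (2 * a) = 6 → a ∣ 3 := fun a ha => ⟨g, by
      have e : g * (2 * a) = 2 * (a * g) := by ring
      omega⟩
    have hdiv3 : ∀ a : ℕ, a ∣ 3 → a = 1 ∨ a = 3 := fun a ha => (Nat.dvd_prime Nat.prime_three).mp ha
    rcases toT (typA h.real hB) with ⟨m, hm, hX, h1, h2, h3⟩ | ⟨m, hm, hX, h1, h2, h3⟩ | ⟨h1, h2, h3⟩ |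
      ⟨m, hm, h1, h2, h3⟩ | ⟨m, hm, h1, h2, h3⟩ | ⟨m, hm, hX, h1, h2, h3⟩ | ⟨m, hm, hX, h1, h2, h3⟩ |
      ⟨h1, h2, h3⟩ | ⟨h1, h2, h3⟩ | ⟨h1, h2, h3⟩ | ⟨h1, h2, h3⟩ | ⟨h1, h2, h3⟩
    · have hDn : DM X = n := by omega
      rw [hDn] at hD
      have hgf : g = f := Nat.eq_of_mul_eq_mul_right (show 0 < n by omega) hD
      apply hneB
      have hB2 : BM X = n - 1 := by omega
      rw [hB2, hgf]
    · have hB2 : BM X = 2 * (n - 2) := by omega
      have hDn : DM X = 2 * (n - 1) := by omega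
      have h6 : g * (2 * (n - 2)) ≠ 6 := fun h0 => by
        rcases hdiv3 _ (hsmall _ h0) with h1 | h1 <;> omega
      obtain ⟨i', c', hc', h10, h12⟩ := hzB _ hB2 h6 (by omega)
      rw [hDn] at h12
      refine nlB2_C hn h10 hc' (two _ _ ?_)
      calc 2 * (i' * (n - 1)) = i' * (2 * (n - 1)) := by ring
        _ = _ := h12
        _ = _ := by ring
    · omega
    · have hB2 : BM X = 2 * (2 * n - 5) := by omega
      have hDn : DM X = 2 * (2 * n - 3) := by omega
      have h6 : g * (2 * (2 * n - 5)) ≠ 6 := fun h0 => by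
        rcases hdiv3 _ (hsmall _ h0) with h1 | h1
        · omega
        · have hn4 : n = 4 := by omega
          rw [hDn, hn4] at hD
          rw [hn4] at h0
          omega
      obtain ⟨i', c', hc', h10, h12⟩ := hzB _ hB2 h6 (by omega)
      rw [hDn] at h12
      refine nlB2_Ue hn h10 hc' (two _ _ ?_)
      calc 2 * (i' * (2 * n - 3)) = i' * (2 * (2 * n - 3)) := by ring
        _ = _ := h12
        _ = _ := by ring
    · have hB2 : BM X = 2 * (2 * n - 3) := by omega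
      have hDn : DM X = 2 * (2 * n - 1) := by omega
      have h6 : g * (2 * (2 * n - 3)) ≠ 6 := fun h0 => by
        rcases hdiv3 _ (hsmall _ h0) with h1 | h1 <;> omega
      obtain ⟨i', c', hc', h10, h12⟩ := hzB _ hB2 h6 (by omega)
      rw [hDn] at h12
      refine nlB2_Uo hn h10 hc' (two _ _ ?_)
      calc 2 * (i' * (2 * n - 1)) = i' * (2 * (2 * n - 1)) := by ring
        _ = _ := h12
        _ = _ := by ring
    · have hB2 : BM X = 2 * (n - 3) := by omega
      have hDn : DM X = 2 * (n - 2) := by omega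
      have h6 : g * (2 * (n - 3)) ≠ 6 := fun h0 => by
        rcases hdiv3 _ (hsmall _ h0) with h1 | h1
        · omega
        · have hn4 : n = 6 := by omega
          rw [hDn, hn4] at hD
          rw [hn4] at h0
          omega
      obtain ⟨i', c', hc', h10, h12⟩ := hzB _ hB2 h6 (by omega)
      rw [hDn] at h12
      refine nlB2_D (by omega) h10 hc' (two _ _ ?_)
      calc 2 * (i' * (n - 2)) = i' * (2 * (n - 2)) := by ring
        _ = _ := h12
        _ = _ := by ring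
    · have hDn : DM X = 2 * n := by omega
      rw [hDn] at hD
      have h7 : 2 * g = f := by
        apply Nat.eq_of_mul_eq_mul_left (show 0 < n by omega)
        calc n * (2 * g) = g * (2 * n) := by ring
          _ = _ := hD
          _ = _ := by ring
      apply hneB
      have hB2 : BM X = 2 * (n - 1) := by omega
      rw [hB2, ← h7]; ring
    · omega
    · omega
    · have hn7 : n = 8 := by omega
      have hB2 : BM X = 14 := by omega
      obtain ⟨i', c', hc', h10, h12⟩ := hzB _ hB2 (by omega) (by omega)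
      rw [hn7, h1] at h12
      rw [hn7] at h10
      omega
    · omega
    · omega
  · have := typB_le (typB h.real hB)
    omega

end Cfsg.Agent.H363.PslArith
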