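import Mathlib
import Cfsg.Agent.H902.Names
import Cfsg.Agent.S0817
import Cfsg.Agent.S0818
import Cfsg.Prelude.Def_LieTypeChar

/-!
# Groups of Lie type in characteristic `p`: order and outer automorphisms
-/

set_option autoImplicit false

namespace Cfsg.Agent.H363.PslLie

open Cfsg Cfsg.Agent.H902 Cfsg.Agent.OrdDiv

universe u

theorem card_mulAut_congr {A B : Type*} [Group A] [Group B] (e : A ≃* B) :
    Nat.card (MulAut A) = Nat.card (MulAut B) := Nat.card_congr (MulAut.congr e).toEquiv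

/-- prime divisors of the order of the outer automorphism group, orthogonal groups -/
def OutD (g : ℕ) (H : Type u) [Group H] : Prop :=
  ∃ c, Nat.card (MulAut H) = c * Nat.card H ∧ ∀ t, t.Prime → t ∣ c → t ≤ 3 ∨ t ≤ g

theorem prime_le_of_dvd {a g t : ℕ} (ht : t.Prime) (hg : 1 ≤ g)
    (ha : ∀ t, t.Prime → t ∣ a → t ≤ 3) (h : t ∣ a * g) : t ≤ 3 ∨ t ≤ g := by
  rcases (ht.dvd_mul).mp h with h1 | h1
  · exact Or.inl (ha t ht h1)
  · exact Or.inr (Nat.le_of_dvd hg h1)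

theorem oplus_out {F : Type} [Field F] [Fintype F] {p f m : ℕ} (hp : p.Prime) (hf : 1 ≤ f)
    (hF : Fintype.card F = p ^ f) (hm : 4 ≤ m) {H : Type u} [Group H]
    (e : H ≃* POmega F (quadFormPlus m F)) : OutD f H := by
  have : Fact p.Prime := ⟨hp⟩
  have h := S0817.result (F := F) p f hf hF m hm
  refine ⟨(if m = 4 then 3 else 1) * (if p = 2 then 2 else (if Even (m * (p ^ f - 1) / 2) then 8 else 4)) * f,
    ?_, ?_⟩
  · rw [card_mulAut_congr e, h, Nat.card_congr e.toEquiv]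
  · intro t ht htd
    refine prime_le_of_dvd ht hf (fun t ht h1 => ?_) htd
    rcases (ht.dvd_mul).mp h1 with h2 | h2
    · split_ifs at h2
      · exact Nat.le_of_dvd (by norm_num) h2
      · have := Nat.le_of_dvd (by norm_num) h2; omega
    · have h3 : t ∣ 2 ^ 3 := by
        split_ifs at h2
        · exact h2.trans (by norm_num)
        · exact h2.trans (by norm_num)
        · exact h2.trans (by norm_num)
      have := (Nat.prime_dvd_prime_iff_eq ht Nat.prime_two).mp (ht.dvd_of_dvd_pow h3)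
      omega

theorem ominus_out {F : Type} [Field F] [Fintype F] {p f m : ℕ} (hp : p.Prime) (hf : 1 ≤ f)
    (hF : Fintype.card F = p ^ f) (hm : 4 ≤ m) {a b : F}
    (hab : ∀ z₁ z₂ : F, z₁ ^ 2 + a * z₁ * z₂ + b * z₂ ^ 2 = 0 → z₁ = 0 ∧ z₂ = 0) {H : Type u} [Group H]
    (e : H ≃* POmega F (quadFormMinus (m - 1) F a b)) : OutD f H := by
  have : Fact p.Prime := ⟨hp⟩
  have h := S0818.result (F := F) p f hf hF m hm a b hab
  refine ⟨(if p = 2 then 2 else (if Even (m * (p ^ f - 1) / 2) then 4 else 8)) * f, ?_, ?_⟩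
  · rw [card_mulAut_congr e, h, Nat.card_congr e.toEquiv]
  · intro t ht htd
    refine prime_le_of_dvd ht hf (fun t ht h2 => ?_) htd
    have h3 : t ∣ 2 ^ 3 := by
      split_ifs at h2
      · exact h2.trans (by norm_num)
      · exact h2.trans (by norm_num)
      · exact h2.trans (by norm_num)
    have := (Nat.prime_dvd_prime_iff_eq ht Nat.prime_two).mp (ht.dvd_of_dvd_pow h3)
    omega

/-- **The shape of a group of Lie type in characteristic `p`.** -/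
theorem exists_shape (T : OrderTable.{u}) {p : ℕ} (hp : p.Prime) {H : Type u} [Group H]
    (h : IsLieTypeChar p H) : ∃ X g, Art.Real X p g (Nat.card H) ∧
      ((∃ m, X = .D m ∨ X = .DD m) → OutD g H) := by
  have : Fact p.Prime := ⟨hp⟩
  rcases h with h | h | h | h | h | h | h | h | h | h | h
  · obtain ⟨F, _, _, _, n, hn, hn2, ⟨e⟩⟩ := h
    obtain ⟨f, -, hF⟩ := FiniteField.card F p
    rw [hF] at hn2
    refine ⟨.L n, f, by rw [Nat.card_congr e.toEquiv]; exact Names.psl_real hp f.pos hF hn hn2, ?_⟩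
    rintro ⟨m, hm | hm⟩ <;> exact absurd hm (by simp)
  · obtain ⟨F, _, _, _, n, hn, hn2, ⟨e⟩⟩ := h
    obtain ⟨f, -, hF⟩ := FiniteField.card F p
    rw [hF] at hn2
    refine ⟨.C n, f, by rw [Nat.card_congr e.toEquiv]; exact Names.psp_real hp f.pos hF hn hn2, ?_⟩
    rintro ⟨m, hm | hm⟩ <;> exact absurd hm (by simp)
  · obtain ⟨F, _, _, _, n, q, hF, hn, hn2, ⟨e⟩⟩ := h
    have hqp : IsPrimePow q := by
      have h2 : IsPrimePow (q ^ 2) := hF ▸ Fintype.isPrimePow_card_of_field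
      exact (isPrimePow_pow_iff (by norm_num)).1 h2
    obtain ⟨p', f, hp', hf, rfl⟩ := (isPrimePow_nat_iff _).1 hqp
    obtain ⟨f', -, hF'⟩ := FiniteField.card F p
    have hpp : p' = p := by
      have h1 : p' ∣ p ^ (f' : ℕ) := by
        rw [← hF', hF]
        exact (dvd_pow_self p' (by omega)).trans (dvd_pow_self _ (by norm_num))
      exact (Nat.prime_dvd_prime_iff_eq hp' hp).mp (hp'.dvd_of_dvd_pow h1)
    subst hpp
    refine ⟨.U n, f, by rw [Nat.card_congr e.toEquiv]; exact Names.psu_real hp hf hF hn hn2, ?_⟩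
    rintro ⟨m, hm | hm⟩ <;> exact absurd hm (by simp)
  · obtain ⟨F, _, _, _, n, hn, ho, ⟨e⟩⟩ := h
    obtain ⟨f, -, hF⟩ := FiniteField.card F p
    rw [hF] at ho
    refine ⟨.C n, f, by rw [Nat.card_congr e.toEquiv]; exact Names.oodd_real hp f.pos hF hn ho, ?_⟩
    rintro ⟨m, hm | hm⟩ <;> exact absurd hm (by simp)
  · obtain ⟨F, _, _, _, n, hn, ⟨e⟩⟩ := h
    obtain ⟨f, -, hF⟩ := FiniteField.card F p
    exact ⟨.D n, f, by rw [Nat.card_congr e.toEquiv]; exact Names.oplus_real hp f.pos hF hn,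
      fun _ => oplus_out hp f.pos hF hn e⟩
  · obtain ⟨F, _, _, _, n, a, b, hn, hab, ⟨e⟩⟩ := h
    obtain ⟨f, -, hF⟩ := FiniteField.card F p
    exact ⟨.DD n, f, by rw [Nat.card_congr e.toEquiv]; exact Names.ominus_real hp f.pos hF hn hab,
      fun _ => ominus_out hp f.pos hF hn hab e⟩
  · obtain ⟨F, _, _, _, h⟩ := h
    obtain ⟨f, -, hF⟩ := FiniteField.card F p
    rcases h with ⟨hq, ⟨e⟩⟩ | ⟨⟨e⟩⟩ | ⟨⟨e⟩⟩ | ⟨⟨e⟩⟩ | ⟨⟨e⟩⟩
    · rw [hF] at hq
      refine ⟨.G2, f, ⟨hp, f.pos, hq, ?_⟩, ?_⟩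
      · rw [Nat.card_congr e.toEquiv, T.g2 F, hF]
        change 1 * _ = (p ^ (f : ℕ)) ^ 6 * (_ * _)
        ring
      · rintro ⟨m, hm | hm⟩ <;> exact absurd hm (by simp)
    · refine ⟨.F4, f, ⟨hp, f.pos, trivial, ?_⟩, ?_⟩
      · rw [Nat.card_congr e.toEquiv, T.f4 F _ hF]
        change 1 * _ = (p ^ (f : ℕ)) ^ 24 * (_ * _ * _ * _)
        ring
      · rintro ⟨m, hm | hm⟩ <;> exact absurd hm (by simp)
    · refine ⟨.E6, f, ⟨hp, f.pos, trivial, ?_⟩, ?_⟩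
      · rw [Nat.card_congr e.toEquiv]
        change Nat.gcd 3 (p ^ (f : ℕ) - 1) * _ = (p ^ (f : ℕ)) ^ 36 * (_ * _ * _ * _ * _ * _)
        rw [T.e6 F _ hF]
        ring
      · rintro ⟨m, hm | hm⟩ <;> exact absurd hm (by simp)
    · refine ⟨.E7, f, ⟨hp, f.pos, trivial, ?_⟩, ?_⟩
      · rw [Nat.card_congr e.toEquiv]
        change Nat.gcd 2 (p ^ (f : ℕ) - 1) * _ = (p ^ (f : ℕ)) ^ 63 * (_ * _ * _ * _ * _ * _ * _)
        rw [T.e7 F _ hF]
        ring
      · rintro ⟨m, hm | hm⟩ <;> exact absurd hm (by simp)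
    · refine ⟨.E8, f, ⟨hp, f.pos, trivial, ?_⟩, ?_⟩
      · rw [Nat.card_congr e.toEquiv, T.e8 F _ hF]
        change 1 * _ = (p ^ (f : ℕ)) ^ 120 * (_ * _ * _ * _ * _ * _ * _ * _)
        ring
      · rintro ⟨m, hm | hm⟩ <;> exact absurd hm (by simp)
  · obtain ⟨F, _, _, _, q, hq, h⟩ := h
    obtain ⟨p', f, hp', hf, rfl⟩ := (isPrimePow_nat_iff _).1 hq
    obtain ⟨f', -, hF'⟩ := FiniteField.card F p
    have hpp : p' = p := by
      have h1 : p' ∣ p ^ (f' : ℕ) := by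
        rw [← hF']
        rcases h with ⟨hF, -⟩ | ⟨hF, -⟩ <;> rw [hF] <;>
          exact (dvd_pow_self p' (by omega)).trans (dvd_pow_self _ (by norm_num))
      exact (Nat.prime_dvd_prime_iff_eq hp' hp).mp (hp'.dvd_of_dvd_pow h1)
    subst hpp
    rcases h with ⟨hF, ⟨e⟩⟩ | ⟨hF, ⟨e⟩⟩
    · refine ⟨.TE6, f, ⟨hp, hf, trivial, ?_⟩, ?_⟩
      · rw [Nat.card_congr e.toEquiv]
        change Nat.gcd 3 (p' ^ f + 1) * _ = (p' ^ f) ^ 36 * (_ * _ * _ * _ * _ * _)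
        rw [T.te6 F _ hq hF]
        ring
      · rintro ⟨m, hm | hm⟩ <;> exact absurd hm (by simp)
    · refine ⟨.TD4, f, ⟨hp, hf, trivial, ?_⟩, ?_⟩
      · rw [Nat.card_congr e.toEquiv, T.td4 F _ hq hF]
        change 1 * _ = (p' ^ f) ^ 12 * (_ * _ * _)
        ring
      · rintro ⟨m, hm | hm⟩ <;> exact absurd hm (by simp)
  · obtain ⟨rfl, F, _, _, m, hm, hF, ⟨e⟩⟩ := h
    refine ⟨.Sz, 2 * m + 1, ⟨Nat.prime_two, by omega, ⟨rfl, odd_two_mul_add_one m, by omega⟩, ?_⟩, ?_⟩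
    · rw [Nat.card_congr e.toEquiv, T.sz F m hm hF]
      change 1 * _ = (2 ^ (2 * m + 1)) ^ 2 * (_ * _)
      ring
    · rintro ⟨m, hm | hm⟩ <;> exact absurd hm (by simp)
  · obtain ⟨rfl, F, _, _, m, hm, hF, ⟨e⟩⟩ := h
    refine ⟨.TF4, 2 * m + 1, ⟨Nat.prime_two, by omega, ⟨rfl, odd_two_mul_add_one m, by omega⟩, ?_⟩, ?_⟩
    · rw [Nat.card_congr e.toEquiv, T.tf4 F m hm hF]
      change 1 * _ = (2 ^ (2 * m + 1)) ^ 12 * (_ * _ * _ * _)
      ring
    · rintro ⟨m, hm | hm⟩ <;> exact absurd hm (by simp)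
  · obtain ⟨rfl, F, _, _, m, hm, hF, ⟨e⟩⟩ := h
    refine ⟨.Ree, 2 * m + 1, ⟨Nat.prime_three, by omega, ⟨rfl, odd_two_mul_add_one m, by omega⟩, ?_⟩, ?_⟩
    · rw [Nat.card_congr e.toEquiv, T.ree F m hm hF]
      change 1 * _ = (3 ^ (2 * m + 1)) ^ 3 * (_ * _)
      ring
    · rintro ⟨m, hm | hm⟩ <;> exact absurd hm (by simp)

end Cfsg.Agent.H363.PslLie
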