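import Mathlib
import Cfsg.Agent.H363.GLBound
import Cfsg.Agent.H363.PslLie
import Cfsg.Agent.H902.SameD

/-!
# Exclusion of the orthogonal sections
-/

set_option autoImplicit false

namespace Cfsg.Agent.H363.PslGen

open Cfsg Cfsg.Agent.H902 Cfsg.Agent.H363.Frat Cfsg.Agent.H363.Master Cfsg.Agent.H363.PslLie Finset
open Cfsg.Agent.Lib.Zsigmondy

universe u

/-- a prime dividing `Q ^ n - 1` but not `Q ^ 2 - 1`. -/
theorem exists_u {p g n : ℕ} (hp : p.Prime) (hg : 1 ≤ g) (hn : 4 ≤ n) :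
    ∃ t : ℕ, t.Prime ∧ t ∣ (p ^ g) ^ n - 1 ∧ ¬ t ∣ (p ^ g) ^ 2 - 1 ∧ 3 < t ∧ g < t ∧ t ≠ p := by
  have hgn : 1 * 4 ≤ g * n := Nat.mul_le_mul hg hn
  by_cases hex : p = 2 ∧ g * n = 6
  · obtain ⟨rfl, h6⟩ := hex
    have hg1 : g = 1 := by
      by_contra hcon
      have : 2 * 4 ≤ g * n := Nat.mul_le_mul (by omega) hn
      omega
    subst hg1
    have hn6 : n = 6 := by omega
    subst hn6
    exact ⟨7, by norm_num, by norm_num, by norm_num, by norm_num, by norm_num, by norm_num⟩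
  · obtain ⟨t, ht, ho⟩ := exists_prime_orderOf (a := p) (n := g * n) hp.two_le (by omega)
      (fun h => by omega) hex
    have htp : t ≠ p := Art.ne_of_order ht (n := g * n) (by omega) ho
    have htp' : ¬ t ∣ p := fun h => htp ((Nat.prime_dvd_prime_iff_eq ht hp).mp h)
    have h1 := orderOf_dvd_pred ht htp'
    rw [ho] at h1
    have h2 := Nat.le_of_dvd (by have := ht.two_le; omega) h1
    have h3 : g * 4 ≤ g * n := Nat.mul_le_mul_left g hn
    refine ⟨t, ht, ?_, ?_, by omega, by omega, htp⟩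
    · rw [Art.dvd_iff hp, ho]
    · rw [Art.dvd_iff hp, ho]
      intro h4
      have := Nat.le_of_dvd (by omega) h4
      omega

/-- the quotient of the orders -/
theorem dd_quot {p g n M N : ℕ} (hG : Art.Real (.L n) p (2 * g) M) (hN : Art.Real (.DD n) p g N) (hn : 4 ≤ n) :
    ((p ^ g) ^ 2 - 1) * (Nat.gcd n ((p ^ g) ^ 2 - 1) * M) = ((p ^ g) ^ n - 1) * (Nat.gcd 4 ((p ^ g) ^ n + 1) * N) := by
  have h1 := hG.eq
  have h2 := hN.eq
  have e1 : Art.dd (.L n) (p ^ (2 * g)) = Nat.gcd n (p ^ (2 * g) - 1) := rfl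
  have e2 : Art.dd (.DD n) (p ^ g) = Nat.gcd 4 ((p ^ g) ^ n + 1) := rfl
  have e3 : Art.num (.L n) (p ^ (2 * g)) = ∏ i ∈ range (n - 1), ((p ^ (2 * g)) ^ (i + 2) - 1) := rfl
  have e4 : Art.num (.DD n) (p ^ g) =
      ((p ^ g) ^ n + 1) * ∏ i ∈ range (n - 1), ((p ^ g) ^ (2 * (i + 1)) - 1) := rfl
  have e5 : Art.NN (.L n) = n * (n - 1) / 2 := rfl
  have e6 : Art.NN (.DD n) = n * (n - 1) := rfl
  have e7 : p ^ (2 * g) = (p ^ g) ^ 2 := by rw [← pow_mul, mul_comm]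
  rw [e1, e3, e5, e7] at h1
  rw [e2, e4, e6] at h2
  have hQ : 2 ≤ p ^ g := hN.q_ge
  generalize p ^ g = Q at *
  have h3 : 2 * (n * (n - 1) / 2) = n * (n - 1) := by
    have := Cfsg.Agent.H902.Art.two_mul_half n
    omega
  rw [h1, h2, ← pow_mul, h3]
  -- the products
  obtain ⟨m, rfl⟩ : ∃ m, n = m + 2 := ⟨n - 2, by omega⟩
  have e8 : (Q ^ 2 - 1) * ∏ i ∈ range (m + 2 - 1), ((Q ^ 2) ^ (i + 2) - 1) =
      ∏ i ∈ range (m + 2), (Q ^ (2 * (i + 1)) - 1) := by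
    rw [Finset.prod_range_succ' (fun i => Q ^ (2 * (i + 1)) - 1), mul_comm]
    congr 1
    apply Finset.prod_congr rfl
    intro i _
    rw [← pow_mul]
  have e9 : ∏ i ∈ range (m + 2), (Q ^ (2 * (i + 1)) - 1) =
      (∏ i ∈ range (m + 2 - 1), (Q ^ (2 * (i + 1)) - 1)) * (Q ^ (2 * (m + 2)) - 1) := by
    rw [Finset.prod_range_succ]
    rfl
  have e10 : Q ^ (2 * (m + 2)) - 1 = (Q ^ (m + 2) - 1) * (Q ^ (m + 2) + 1) := by
    obtain ⟨t, ht⟩ := Nat.exists_eq_add_of_le' (Nat.one_le_pow (m + 2) Q (by omega))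
    rw [two_mul, pow_add, ht, Nat.add_sub_cancel]
    have : (t + 1) * (t + 1) = t * (t + 1 + 1) + 1 := by ring
    rw [this, Nat.add_sub_cancel]
  calc (Q ^ 2 - 1) * (Q ^ ((m + 2) * (m + 2 - 1)) * ∏ i ∈ range (m + 2 - 1), ((Q ^ 2) ^ (i + 2) - 1))
      = Q ^ ((m + 2) * (m + 2 - 1)) * ((Q ^ 2 - 1) * ∏ i ∈ range (m + 2 - 1), ((Q ^ 2) ^ (i + 2) - 1)) := by ring
    _ = _ := by rw [e8, e9, e10]; ring

/-- **The section is not `PΩ⁻_2n(√q)`.** -/
theorem dd_false {G : Type u} [Group G] [Finite G] {p g n s : ℕ} (hn : 4 ≤ n) {K : Subgroup G} [K.Normal]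
    {N : Subgroup (G ⧸ K)} [N.Normal] [IsSimpleGroup N] (hpK : ¬ p ∣ Nat.card K)
    (hG : Art.Real (.L n) p (2 * g) (Nat.card G)) (hN : Art.Real (.DD n) p g (Nat.card N))
    (hout : OutD g N) (hs : s.Prime) (hsN : s ∣ Nat.card N)
    (hs1 : ∀ x : G, s ∣ orderOf x → orderOf x ∣ (p ^ (2 * g)) ^ (n - 1) - 1) : False := by
  have hp := hN.hp
  have hg := hN.hf
  obtain ⟨t, ht, ht1, ht2, ht3, ht4, htp⟩ := exists_u hp hg hn
  have hquot := dd_quot hG hN hn
  have hq : p ^ (2 * g) = (p ^ g) ^ 2 := by rw [← pow_mul, mul_comm]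
  rw [hq] at hs1
  have hQ := hN.q_ge
  -- `t` does not divide `q ^ (n - 1) - 1`
  have ht5 : ¬ t ∣ ((p ^ g) ^ 2) ^ (n - 1) - 1 := by
    intro h1
    rw [← pow_mul, Art.dvd_iff hp] at h1
    rw [Art.dvd_iff hp] at ht1 ht2
    apply ht2
    -- `gcd (n, 2 (n - 1)) ∣ 2`
    have h2 := Nat.dvd_gcd ht1 h1
    rw [Nat.gcd_mul_left] at h2
    refine h2.trans (Nat.mul_dvd_mul_left g ?_)
    have h3 := Nat.gcd_dvd_left n (2 * (n - 1))
    have h4 := Nat.gcd_dvd_right n (2 * (n - 1))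
    have h5 : Nat.gcd n (2 * (n - 1)) ∣ 2 * n - 2 * (n - 1) := Nat.dvd_sub (h3.mul_left 2) h4
    have h6 : 2 * n - 2 * (n - 1) = 2 := by omega
    rwa [h6] at h5
  have hnas : NonAdj G s t := by
    intro x hx
    have h1 := hs1 x (by rw [hx]; exact dvd_mul_right _ _)
    rw [hx] at h1
    exact ht5 ((dvd_mul_left t s).trans h1)
  have hst : s ≠ t := by
    rintro rfl
    have : Fact s.Prime := ⟨hs⟩
    have h1 : s ∣ Nat.card G := by
      have h2 : Nat.card N ∣ Nat.card (G ⧸ K) := Subgroup.card_subgroup_dvd_card N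
      exact hsN.trans (h2.trans (Subgroup.card_quotient_dvd_card K))
    obtain ⟨x, hx⟩ := exists_prime_orderOf_dvd_card' s h1
    have h2 := hs1 x (by rw [hx])
    rw [hx] at h2
    exact ht5 h2
  -- the index
  set J := Nat.card K * N.index with hJ
  have hGJ : Nat.card G = Nat.card N * J := by
    have h1 : Nat.card K * Nat.card (G ⧸ K) = Nat.card G := by
      rw [← Subgroup.index_eq_card, Subgroup.card_mul_index]
    have h2 := N.card_mul_index
    rw [← h1, ← h2, hJ]; ring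
  have hN0 : 0 < Nat.card N := Nat.card_pos
  have hJe : ((p ^ g) ^ 2 - 1) * (Nat.gcd n ((p ^ g) ^ 2 - 1) * J) = ((p ^ g) ^ n - 1) * Nat.gcd 4 ((p ^ g) ^ n + 1) := by
    apply Nat.eq_of_mul_eq_mul_left hN0
    calc Nat.card N * (((p ^ g) ^ 2 - 1) * (Nat.gcd n ((p ^ g) ^ 2 - 1) * J))
        = ((p ^ g) ^ 2 - 1) * (Nat.gcd n ((p ^ g) ^ 2 - 1) * (Nat.card N * J)) := by ring
      _ = ((p ^ g) ^ n - 1) * (Nat.gcd 4 ((p ^ g) ^ n + 1) * Nat.card N) := by rw [← hGJ, hquot]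
      _ = _ := by ring
  have htJ : t ∣ J := by
    have h1 : t ∣ ((p ^ g) ^ 2 - 1) * (Nat.gcd n ((p ^ g) ^ 2 - 1) * J) := by
      rw [hJe]; exact ht1.mul_right _
    rcases (ht.dvd_mul).mp h1 with h2 | h2
    · exact absurd h2 ht2
    · rcases (ht.dvd_mul).mp h2 with h3 | h3
      · exact absurd (h3.trans (Nat.gcd_dvd_right _ _)) ht2
      · exact h3
  -- the size
  have hJlt : J < (p ^ g) ^ n := by
    generalize p ^ g = Q at *
    have hgp : 0 < Nat.gcd n (Q ^ 2 - 1) := Nat.gcd_pos_of_pos_left _ (by omega)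
    have hg4 : Nat.gcd 4 (Q ^ n + 1) ≤ 4 := Nat.gcd_le_left _ (by norm_num)
    have hQn : 1 ≤ Q ^ n := Nat.one_le_pow _ _ (by omega)
    have h1 : (Q ^ 2 - 1) * J ≤ (Q ^ n - 1) * Nat.gcd 4 (Q ^ n + 1) := by
      rw [← hJe]
      apply Nat.mul_le_mul_left
      exact Nat.le_mul_of_pos_left _ hgp
    rcases Nat.lt_or_ge Q 3 with h3 | h3
    · have hQ2 : Q = 2 := by omega
      subst hQ2
      have h4 : Nat.gcd 4 (2 ^ n + 1) = 1 := by
        have : Nat.Coprime (2 ^ 2) (2 ^ n + 1) := by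
          apply Nat.Coprime.pow_left
          rw [Nat.coprime_two_left, Nat.odd_add_one, Nat.not_odd_iff_even]
          exact (Nat.even_pow.mpr ⟨even_two, by omega⟩)
        exact this
      rw [h4, mul_one] at h1
      norm_num at h1
      omega
    · have h4 : 3 ^ 2 ≤ Q ^ 2 := Nat.pow_le_pow_left h3 2
      have h5 : 8 * J ≤ (Q ^ 2 - 1) * J := Nat.mul_le_mul_right J (by omega)
      have h6 : (Q ^ n - 1) * Nat.gcd 4 (Q ^ n + 1) ≤ (Q ^ n - 1) * 4 := Nat.mul_le_mul_left _ hg4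
      omega
  by_cases htK : t ∣ Nat.card K
  · have h1 := pow_le_of_dvd_core N hp hs ht hst hpK htK hsN hnas
    have h2 := Art.P_prime_exp hN
    have h3 : Art.NN (.DD n) = n * (n - 1) := rfl
    rw [← h2, h3, pow_mul] at h1
    have hKJ : Nat.card K ≤ J := by
      rw [hJ]
      exact Nat.le_mul_of_pos_right _ (Nat.pos_of_ne_zero Subgroup.index_ne_zero_of_finite)
    have h4 : Nat.card K ^ 3 < (p ^ g) ^ (n * (n - 1)) := by
      calc Nat.card K ^ 3 < ((p ^ g) ^ n) ^ 3 := Nat.pow_lt_pow_left (by omega) (by norm_num)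
        _ = (p ^ g) ^ (n * 3) := by rw [← pow_mul]
        _ ≤ _ := Nat.pow_le_pow_right (by omega) (Nat.mul_le_mul_left n (by omega))
    omega
  · have htI : t ∣ N.index := ((ht.dvd_mul).mp htJ).resolve_left htK
    obtain ⟨c, hc, hct⟩ := hout
    refine not_dvd_index N ht hc (fun h => ?_) (fun h => ?_) htI
    · rcases hct t ht h with h1 | h1 <;> omega
    · refine false_of_subgroups hs ht hst (hnas.quotient K) (A := N)
        (B := Subgroup.centralizer (N : Set (G ⧸ K))) ?_ hsN h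
      intro a ha b hb
      exact (Subgroup.mem_centralizer_iff.mp hb a ha)

/-- **The section is not `PΩ⁺_2n(√q)`.** -/
theorem d_false {G : Type u} [Group G] [Finite G] {p g r : ℕ} {K : Subgroup G} [K.Normal]
    {N : Subgroup (G ⧸ K)} [N.Normal] (hp : p.Prime) (hpN : p ∣ Nat.card N)
    (hout : OutD g N) (hr : r.Prime) (hrp : r ≠ p) (hr3 : 3 < r) (hrg : g < r) (hrG : r ∣ Nat.card G)
    (hrK : ¬ r ∣ Nat.card K) (hrN : ¬ r ∣ Nat.card N) (hnr : NonAdj G r p) : False := by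
  have h1 := dvd_quotient hr hrK hrG
  have h2 : r ∣ Nat.card N * N.index := by rw [N.card_mul_index]; exact h1
  have h3 := ((hr.dvd_mul).mp h2).resolve_left hrN
  obtain ⟨c, hc, hct⟩ := hout
  refine not_dvd_index N hr hc (fun h => ?_) (fun h => ?_) h3
  · rcases hct r hr h with h1 | h1 <;> omega
  · refine false_of_subgroups hr hp hrp (hnr.quotient K)
      (A := Subgroup.centralizer (N : Set (G ⧸ K))) (B := N) ?_ h hpN
    intro a ha b hb
    exact (Subgroup.mem_centralizer_iff.mp ha b hb).symm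

end Cfsg.Agent.H363.PslGen
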