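import Mathlib
import Cfsg.Agent.H365.Cube
import Cfsg.Agent.H902.SameD

/-!
# The exceptional simple groups with a large Sylow `p`-subgroup do not occur
-/

set_option autoImplicit false

namespace Cfsg.Agent.H363.PslExc

open Cfsg Cfsg.Agent.H365.PPart Cfsg.Agent.H365.CubeA Cfsg.Agent.H365.CubeU Cfsg.Agent.H365.CubeC
  Cfsg.Agent.H365.CubeS Cfsg.Agent.H365.CubeR Cfsg.Agent.H365.CubeF Cfsg.Agent.H365.Cube Finset
open Cfsg.Agent.Lib.Zsigmondy

universe u

theorem fac_eq {p a m N : ℕ} (hp : p.Prime) (h : N = p ^ a * m) (hm : ¬ p ∣ m) (hm0 : m ≠ 0) :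
    N.factorization p = a := by
  rw [h, Nat.factorization_mul (pow_ne_zero _ hp.ne_zero) hm0, Finsupp.add_apply,
    hp.factorization_pow, Finsupp.single_eq_same, Nat.factorization_eq_zero_of_not_dvd hm, add_zero]

theorem fac_le {p w N : ℕ} (h : N ≠ 0) (h1 : N < p ^ w) (hp : p.Prime) : N.factorization p < w := by
  by_contra hcon
  push Not at hcon
  have h2 := Nat.le_of_dvd (Nat.pos_of_ne_zero h) (Nat.ordProj_dvd N p)
  have h3 : p ^ w ≤ p ^ N.factorization p := Nat.pow_le_pow_right hp.pos hcon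
  omega

theorem order_eq {l m : ℕ} (hm : 0 < m) (h1 : (2 : ZMod l) ^ m = 1)
    (h2 : ∀ t : ℕ, t < m → 0 < t → (2 : ZMod l) ^ t ≠ 1) : orderOf ((2 : ℕ) : ZMod l) = m := by
  rw [orderOf_eq_iff hm]
  exact ⟨by exact_mod_cast h1, fun t ht ht0 h => h2 t ht ht0 (by exact_mod_cast h)⟩

theorem ord11 : orderOf ((2 : ℕ) : ZMod 11) = 10 := order_eq (by norm_num) (by decide) (by decide)
theorem ord13 : orderOf ((2 : ℕ) : ZMod 13) = 12 := order_eq (by norm_num) (by decide) (by decide)
theorem ord23 : orderOf ((2 : ℕ) : ZMod 23) = 11 := order_eq (by norm_num) (by decide) (by decide)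
theorem ord47 : orderOf ((2 : ℕ) : ZMod 47) = 23 := order_eq (by norm_num) (by decide) (by decide)

/-- the numerical hypotheses -/
structure Num (p w k n f : ℕ) : Prop where
  hp : p.Prime
  hn : 4 ≤ n
  hf : 1 ≤ f
  hv : 2 * (w + k) = f * (n * (n - 1))
  hk : k = 0 ∨ p ^ (k - 1) < n
  ex2 : p = 2 → 7 ≤ f * n
  ex3 : p = 3 → 5 ≤ f * n

theorem lt_pow_aux (m : ℕ) : m + 4 ≤ 3 ^ (m + 2) := by
  induction m with
  | zero => norm_num
  | succ m ih =>
    have : 3 ^ (m + 1 + 2) = 3 * 3 ^ (m + 2) := by ring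
    omega

theorem lt_pow_aux5 (m : ℕ) : m + 4 ≤ 5 ^ (m + 1) := by
  induction m with
  | zero => norm_num
  | succ m ih =>
    have : 5 ^ (m + 1 + 1) = 5 * 5 ^ (m + 1) := by ring
    omega

theorem Num.k_lt {p w k n f : ℕ} (h : Num p w k n f) : k < n := by
  have hn := h.hn
  rcases h.hk with h1 | h1
  · omega
  · have h2 : k - 1 < p ^ (k - 1) := Nat.lt_pow_self h.hp.one_lt
    omega

theorem Num.w_ge_two {w k n f : ℕ} (h : Num 2 w k n f) : 10 ≤ w := by
  have hn := h.hn
  have hf := h.hf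
  have h7 := h.ex2 rfl
  have hv := h.hv
  have hk := h.hk
  have hkn := h.k_lt
  have hk4 : n ≤ 4 → k ≤ 2 := by
    intro h4
    rcases hk with h1 | h1
    · omega
    · by_contra hcon
      have : 2 ^ 2 ≤ 2 ^ (k - 1) := Nat.pow_le_pow_right (by norm_num) (by omega)
      omega
  have hk8 : n ≤ 8 → k ≤ 3 := by
    intro h4
    rcases hk with h1 | h1
    · omega
    · by_contra hcon
      have : 2 ^ 3 ≤ 2 ^ (k - 1) := Nat.pow_le_pow_right (by norm_num) (by omega)
      omega
  rcases Nat.lt_or_ge n 8 with h8 | h8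
  · interval_cases n
    · have := hk4 le_rfl; omega
    · have := hk8 (by norm_num); omega
    · have := hk8 (by norm_num); omega
    · have := hk8 (by norm_num); omega
  · obtain ⟨m, rfl⟩ : ∃ m, n = m + 8 := ⟨n - 8, by omega⟩
    rw [show m + 8 - 1 = m + 7 by omega] at hv
    have h9 : 1 * ((m + 8) * (m + 7)) ≤ f * ((m + 8) * (m + 7)) := Nat.mul_le_mul_right _ hf
    nlinarith

theorem Num.w_ge_three {w k n f : ℕ} (h : Num 3 w k n f) : 8 ≤ w := by
  have hn := h.hn
  have hf := h.hf
  have h7 := h.ex3 rfl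
  have hv := h.hv
  have hk := h.hk
  rcases Nat.lt_or_ge n 5 with h8 | h8
  · have hn4 : n = 4 := by omega
    subst hn4
    have hk4 : k ≤ 2 := by
      rcases hk with h1 | h1
      · omega
      · by_contra hcon
        have : 3 ^ 2 ≤ 3 ^ (k - 1) := Nat.pow_le_pow_right (by norm_num) (by omega)
        omega
    omega
  · obtain ⟨m, rfl⟩ : ∃ m, n = m + 5 := ⟨n - 5, by omega⟩
    have hkm : k ≤ m + 2 := by
      rcases hk with h1 | h1
      · omega
      · by_contra hcon
        have h2 : 3 ^ (m + 2) ≤ 3 ^ (k - 1) := Nat.pow_le_pow_right (by norm_num) (by omega)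
        have h3 : m + 5 ≤ 3 ^ (m + 2) := by
          clear * -
          induction m with
          | zero => norm_num
          | succ m ih =>
            have : 3 ^ (m + 1 + 2) = 3 * 3 ^ (m + 2) := by ring
            omega
        omega
    rw [show m + 5 - 1 = m + 4 by omega] at hv
    have h9 : 1 * ((m + 5) * (m + 4)) ≤ f * ((m + 5) * (m + 4)) := Nat.mul_le_mul_right _ hf
    nlinarith

theorem Num.w_ge_five {p w k n f : ℕ} (h : Num p w k n f) (h5 : 5 ≤ p) : 5 ≤ w := by
  have hn := h.hn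
  have hf := h.hf
  have hv := h.hv
  have hk := h.hk
  obtain ⟨m, rfl⟩ : ∃ m, n = m + 4 := ⟨n - 4, by omega⟩
  have hkm : k ≤ m + 1 := by
    rcases hk with h1 | h1
    · omega
    · by_contra hcon
      have h2 : 5 ^ (m + 1) ≤ 5 ^ (k - 1) := Nat.pow_le_pow_right (by norm_num) (by omega)
      have h3 := lt_pow_aux5 m
      have h4 : 5 ^ (k - 1) ≤ p ^ (k - 1) := Nat.pow_le_pow_left h5 _
      omega
  rw [show m + 4 - 1 = m + 3 by omega] at hv
  have h9 : 1 * ((m + 4) * (m + 3)) ≤ f * ((m + 4) * (m + 3)) := Nat.mul_le_mul_right _ hf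
  nlinarith

theorem Num.w_ge {p w k n f : ℕ} (h : Num p w k n f) : 5 ≤ w ∧ (p = 2 → 10 ≤ w) ∧ (p = 3 → 8 ≤ w) := by
  refine ⟨?_, ?_, ?_⟩
  · have hp := h.hp.two_le
    rcases (by omega : p = 2 ∨ p = 3 ∨ p = 4 ∨ 5 ≤ p) with rfl | rfl | rfl | h5
    · have := h.w_ge_two; omega
    · have := h.w_ge_three; omega
    · exact absurd h.hp (by norm_num)
    · exact h.w_ge_five h5
  · rintro rfl; exact h.w_ge_two
  · rintro rfl; exact h.w_ge_three

/-- elimination of the sporadic groups -/
theorem Num.spor {w k n f : ℕ} (h : Num 2 w k n f) :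
    (w = 10 ∨ w = 18 ∨ w = 21 → ¬ ∃ i, 1 ≤ i ∧ i ≤ n ∧ 11 ∣ f * i) ∧
    (w = 11 → ¬ ∃ i, 1 ≤ i ∧ i ≤ n ∧ 12 ∣ f * i) ∧
    (w = 13 → False) ∧ (w = 14 → False) ∧
    (w = 17 → ¬ ((∃ i, 1 ≤ i ∧ i ≤ n ∧ 12 ∣ f * i) ∧ (∃ i, 1 ≤ i ∧ i ≤ n ∧ 10 ∣ f * i))) ∧
    (w = 41 → ¬ ∃ i, 1 ≤ i ∧ i ≤ n ∧ 23 ∣ f * i) := by
  have hn := h.hn
  have hf := h.hf
  have h7 := h.ex2 rfl
  have hv := h.hv
  have hk := h.hk
  have hkn := h.k_lt
  have hk4 : n ≤ 4 → k ≤ 2 := by
    intro h4
    rcases hk with h1 | h1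
    · omega
    · by_contra hcon
      have : 2 ^ 2 ≤ 2 ^ (k - 1) := Nat.pow_le_pow_right (by norm_num) (by omega)
      omega
  have hk8 : n ≤ 8 → k ≤ 3 := by
    intro h4
    rcases hk with h1 | h1
    · omega
    · by_contra hcon
      have : 2 ^ 3 ≤ 2 ^ (k - 1) := Nat.pow_le_pow_right (by norm_num) (by omega)
      omega
  have hk16 : n ≤ 16 → k ≤ 4 := by
    intro h4
    rcases hk with h1 | h1
    · omega
    · by_contra hcon
      have : 2 ^ 4 ≤ 2 ^ (k - 1) := Nat.pow_le_pow_right (by norm_num) (by omega)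
      omega
  have hbig : w ≤ 41 → n ≤ 10 := by
    intro hw
    by_contra hcon
    obtain ⟨m, rfl⟩ : ∃ m, n = m + 11 := ⟨n - 11, by omega⟩
    rw [show m + 11 - 1 = m + 10 by omega] at hv
    have h9 : 1 * ((m + 11) * (m + 10)) ≤ f * ((m + 11) * (m + 10)) := Nat.mul_le_mul_right _ hf
    nlinarith
  clear hk
  have key : w ≤ 41 → (n = 4 ∧ k ≤ 2 ∨ n = 5 ∧ k ≤ 3 ∨ n = 6 ∧ k ≤ 3 ∨ n = 7 ∧ k ≤ 3 ∨ n = 8 ∧ k ≤ 3 ∨
      n = 9 ∧ k ≤ 4 ∨ n = 10 ∧ k ≤ 4) := by
    intro hw
    have := hbig hw
    omega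
  clear hk4 hk8 hk16 hbig hkn
  refine ⟨?_, ?_, ?_, ?_, ?_, ?_⟩
  · intro hw
    have := key (by omega)
    rcases this with ⟨rfl, h1⟩ | ⟨rfl, h1⟩ | ⟨rfl, h1⟩ | ⟨rfl, h1⟩ | ⟨rfl, h1⟩ | ⟨rfl, h1⟩ | ⟨rfl, h1⟩ <;>
      (rintro ⟨i, hi1, hi2, hi3⟩; norm_num at hv; have hf5 : f ≤ 6 := by omega
       interval_cases f <;> omega)
  · intro hw
    have := key (by omega)
    rcases this with ⟨rfl, h1⟩ | ⟨rfl, h1⟩ | ⟨rfl, h1⟩ | ⟨rfl, h1⟩ | ⟨rfl, h1⟩ | ⟨rfl, h1⟩ | ⟨rfl, h1⟩ <;>
      (rintro ⟨i, hi1, hi2, hi3⟩; norm_num at hv; have hf5 : f ≤ 6 := by omega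
       interval_cases f <;> omega)
  · intro hw
    have := key (by omega)
    rcases this with ⟨rfl, h1⟩ | ⟨rfl, h1⟩ | ⟨rfl, h1⟩ | ⟨rfl, h1⟩ | ⟨rfl, h1⟩ | ⟨rfl, h1⟩ | ⟨rfl, h1⟩ <;>
      (norm_num at hv; omega)
  · intro hw
    have := key (by omega)
    rcases this with ⟨rfl, h1⟩ | ⟨rfl, h1⟩ | ⟨rfl, h1⟩ | ⟨rfl, h1⟩ | ⟨rfl, h1⟩ | ⟨rfl, h1⟩ | ⟨rfl, h1⟩ <;>
      (norm_num at hv; omega)
  · intro hw
    have := key (by omega)
    rcases this with ⟨rfl, h1⟩ | ⟨rfl, h1⟩ | ⟨rfl, h1⟩ | ⟨rfl, h1⟩ | ⟨rfl, h1⟩ | ⟨rfl, h1⟩ | ⟨rfl, h1⟩ <;>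
      (rintro ⟨⟨i, hi1, hi2, hi3⟩, ⟨j, hj1, hj2, hj3⟩⟩; norm_num at hv; have hf5 : f ≤ 6 := by omega
       interval_cases f <;> omega)
  · intro hw
    have := key (by omega)
    rcases this with ⟨rfl, h1⟩ | ⟨rfl, h1⟩ | ⟨rfl, h1⟩ | ⟨rfl, h1⟩ | ⟨rfl, h1⟩ | ⟨rfl, h1⟩ | ⟨rfl, h1⟩ <;>
      (rintro ⟨i, hi1, hi2, hi3⟩; norm_num at hv; have hf5 : f ≤ 9 := by omega
       interval_cases f <;> omega)

theorem card_psl_two {F : Type} [Field F] [Fintype F] : Nat.gcd 2 (Fintype.card F - 1) *
    Nat.card (Matrix.ProjectiveSpecialLinearGroup (Fin 2) F) =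
    Fintype.card F * (Fintype.card F ^ 2 - 1) := by
  have h := psl_eq (F := F) (n := 2) le_rfl
  rw [h, show 2 - 1 = 1 from rfl, sA_succ, sA_zero]
  ring_nf

/-- `q + 1` a power of the odd prime `p`: `q + 1 = p` or `q = 8`, `p = 3` -/
theorem pow_case {F : Type} [Field F] [Fintype F] {p : ℕ} (hp : p.Prime) (hodd : p ≠ 2)
    (h : pt p (Fintype.card F + 1) = Fintype.card F + 1) :
    Fintype.card F + 1 = p ∨ (p = 3 ∧ Fintype.card F = 8) := by
  have hq : 2 ≤ Fintype.card F := Fintype.one_lt_card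
  unfold pt at h
  generalize hk : (Fintype.card F + 1).factorization p = k at h
  obtain ⟨r, hr⟩ := CharP.exists F
  obtain ⟨n, hr1, hn⟩ := FiniteField.card F r
  have hpo : Odd p := hp.odd_of_ne_two hodd
  have hev : Even (Fintype.card F) := by
    have h1 : Odd (p ^ k) := hpo.pow
    rw [h] at h1
    rcases h1 with ⟨c, hc⟩
    exact ⟨c, by omega⟩
  have hr2 : r = 2 := by
    rw [hn] at hev
    exact ((Nat.prime_dvd_prime_iff_eq Nat.prime_two hr1).1 (Nat.prime_two.dvd_of_dvd_pow hev.two_dvd)).symm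
  subst hr2
  rcases Nat.lt_or_ge k 2 with h2 | h2
  · left
    rcases (by omega : k = 0 ∨ k = 1) with rfl | rfl
    · rw [pow_zero] at h; omega
    · rw [pow_one] at h; exact h.symm
  · right
    rw [hn] at h
    have h3 := two_pow_add hp.two_le h2 h.symm
    have h4 : Fintype.card F = 8 := by
      rw [hn]
      omega
    refine ⟨?_, h4⟩
    have h5 : p ∣ 3 ^ 2 := by
      rw [show (3 : ℕ) ^ 2 = 9 by norm_num, ← h3]
      exact dvd_pow_self p (by omega)
    exact (Nat.prime_dvd_prime_iff_eq hp Nat.prime_three).1 (hp.dvd_of_dvd_pow h5)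

/-- `q + 1` a power of 2: `q` is a prime -/
theorem prime_add {F : Type} [Field F] [Fintype F] {k : ℕ} (h : 2 ^ k = Fintype.card F + 1) :
    (Fintype.card F).Prime := by
  have hq : 2 ≤ Fintype.card F := Fintype.one_lt_card
  obtain ⟨r, hr⟩ := CharP.exists F
  obtain ⟨n, hr1, hn⟩ := FiniteField.card F r
  rw [hn] at h
  have h1 := two_pow_sub hr1.two_le n.pos h.symm
  rw [hn, h1, pow_one]
  exact hr1

/-- `q - 1` a power of 2: `q` is a prime or `q = 9` -/
theorem prime_sub {F : Type} [Field F] [Fintype F] {k : ℕ} (h : 2 ^ k + 1 = Fintype.card F) :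
    (Fintype.card F).Prime ∨ Fintype.card F = 9 := by
  obtain ⟨r, hr⟩ := CharP.exists F
  obtain ⟨n, hr1, hn⟩ := FiniteField.card F r
  rcases Nat.lt_or_ge n 2 with h2 | h2
  · left
    have h3 : (n : ℕ) = 1 := by have := n.pos; omega
    rw [hn, h3, pow_one]
    exact hr1
  · right
    rw [hn] at h ⊢
    exact two_pow_add hr1.two_le h2 h

/-- `w ≤ a`, for `PSL_2(l)`, `l = 2 ^ a ± 1`. -/
theorem w_le {l a w N : ℕ} (hl : 4 ≤ l) (hN : N ≠ 0) (h : 2 * N = l * (l ^ 2 - 1)) (hla : l = 2 ^ a + 1 ∨ l + 1 = 2 ^ a)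
    (hw : N.factorization 2 = w) : w ≤ a := by
  have ha : 2 ≤ a := by
    by_contra hcon
    have h1 : 2 ^ a ≤ 2 ^ 1 := Nat.pow_le_pow_right (by norm_num) (by omega)
    omega
  have h0 : l ^ 2 - 1 = (l - 1) * (l + 1) := by
    obtain ⟨t, rfl⟩ := Nat.exists_eq_add_of_le' (show 1 ≤ l by omega)
    rw [Nat.add_sub_cancel]
    have : (t + 1) ^ 2 = t * (t + 1 + 1) + 1 := by ring
    rw [this, Nat.add_sub_cancel]
  obtain ⟨b, rfl⟩ : ∃ b, a = b + 2 := ⟨a - 2, by omega⟩
  have e : 2 ^ (b + 2) = 4 * 2 ^ b := by ring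
  have hodd : ∀ x : ℕ, ¬ 2 ∣ 2 * x + 1 := fun x => by omega
  have hcase : ∃ m, ¬ 2 ∣ m ∧ m ≠ 0 ∧ N = 2 ^ (b + 2) * m := by
    rcases hla with h1 | h1
    · refine ⟨(2 ^ (b + 2) + 1) * (2 * 2 ^ b + 1), ?_, ?_, ?_⟩
      · intro h2
        rcases (Nat.prime_two.dvd_mul).mp h2 with h3 | h3
        · rw [e] at h3; omega
        · omega
      · positivity
      · have h2 : 2 * N = 2 * (2 ^ (b + 2) * ((2 ^ (b + 2) + 1) * (2 * 2 ^ b + 1))) := by
          rw [h, h0, h1, Nat.add_sub_cancel, e]; ring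
        omega
    · have h4 : 1 ≤ 2 ^ b := Nat.one_le_pow _ _ (by norm_num)
      obtain ⟨c, hc⟩ : ∃ c, 2 ^ b = c + 1 := ⟨2 ^ b - 1, by omega⟩
      have h5 : l = 4 * c + 3 := by omega
      refine ⟨(4 * c + 3) * (2 * c + 1), ?_, ?_, ?_⟩
      · intro h2
        rcases (Nat.prime_two.dvd_mul).mp h2 with h3 | h3
        · omega
        · omega
      · positivity
      · have h2 : 2 * N = 2 * (2 ^ (b + 2) * ((4 * c + 3) * (2 * c + 1))) := by
          rw [h, h0, h1, h5, show 4 * c + 3 - 1 = 4 * c + 2 by omega]; ring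
        omega
  obtain ⟨m, hm1, hm2, hm3⟩ := hcase
  rw [← hw, fac_eq Nat.prime_two hm3 hm1 hm2]

/-- **The exceptions do not occur.** -/
theorem exc_false (T : OrdDiv.OrderTable.{u}) {H : Type u} [Group H] [Finite H] {p w k n f : ℕ} (hw : (Nat.card H).factorization p = w)
    (hnum : Num p w k n f) (h : Exc p H)
    (hdiv : ∀ l : ℕ, l.Prime → l ≠ p → l ∣ Nat.card H → ∃ i, 1 ≤ i ∧ i ≤ n ∧ orderOf (p : ZMod l) ∣ f * i) :
    False := by
  obtain ⟨hw5, hw2, hw3⟩ := hnum.w_ge
  have hH0 : Nat.card H ≠ 0 := Nat.card_pos.ne'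
  have hp := hnum.hp
  rcases h with h | h | h | h | h | h | h
  · obtain ⟨m, h1, ⟨e⟩⟩ := h
    simp only [altEx, Bool.or_eq_true, Bool.and_eq_true, beq_iff_eq] at h1
    rcases h1 with (⟨rfl, rfl⟩ | ⟨rfl, rfl | rfl⟩) | ⟨rfl, h1⟩
    · have h2 := OrdDiv.alt_card (by norm_num) e
      have h3 : Nat.card H = 60 := by have : Nat.factorial 5 = 120 := by decide
                                      omega
      have h4 := fac_le hH0 (w := 5) (p := 5) (by rw [h3]; norm_num) (by norm_num)
      omega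
    · have h2 := OrdDiv.alt_card (by norm_num) e
      have h3 : Nat.card H = 360 := by have : Nat.factorial 6 = 720 := by decide
                                       omega
      have h4 := fac_le hH0 (w := 8) (p := 3) (by rw [h3]; norm_num) (by norm_num)
      have := hw3 rfl
      omega
    · have h2 := OrdDiv.alt_card (by norm_num) e
      have h3 : Nat.card H = 3 ^ 4 * 2240 := by have : Nat.factorial 9 = 362880 := by decide
                                                omega
      have h4 := fac_eq Nat.prime_three h3 (by norm_num) (by norm_num)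
      have := hw3 rfl
      omega
    · have h10 := hw2 rfl
      rcases h1 with (((rfl | rfl) | rfl) | rfl) | rfl
      · have h2 := OrdDiv.alt_card (by norm_num) e
        have h3 : Nat.card H = 2 ^ 2 * 15 := by have : Nat.factorial 5 = 120 := by decide
                                                omega
        have h4 := fac_eq Nat.prime_two h3 (by norm_num) (by norm_num)
        omega
      · have h2 := OrdDiv.alt_card (by norm_num) e
        have h3 : Nat.card H = 2 ^ 3 * 45 := by have : Nat.factorial 6 = 720 := by decide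
                                                omega
        have h4 := fac_eq Nat.prime_two h3 (by norm_num) (by norm_num)
        omega
      · have h2 := OrdDiv.alt_card (by norm_num) e
        have h3 : Nat.card H = 2 ^ 6 * 315 := by have : Nat.factorial 8 = 40320 := by decide
                                                 omega
        have h4 := fac_eq Nat.prime_two h3 (by norm_num) (by norm_num)
        omega
      · have h2 := OrdDiv.alt_card (by norm_num) e
        have h3 : Nat.card H = 2 ^ 6 * 2835 := by have : Nat.factorial 9 = 362880 := by decide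
                                                  omega
        have h4 := fac_eq Nat.prime_two h3 (by norm_num) (by norm_num)
        omega
      · have h2 := OrdDiv.alt_card (by norm_num) e
        have h3 : Nat.card H = 2 ^ 7 * 14175 := by have : Nat.factorial 10 = 3628800 := by decide
                                                   omega
        have h4 := fac_eq Nat.prime_two h3 (by norm_num) (by norm_num)
        omega
  · obtain ⟨F, _, _, h4, h5, ⟨e⟩⟩ := h
    have hc := card_psl_two (F := F)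
    rw [← Nat.card_congr e.toEquiv] at hc
    set l := Fintype.card F with hl
    by_cases hp2 : p = 2
    · subst hp2
      have h10 := hw2 rfl
      have hla : ∃ a, (l = 2 ^ a + 1 ∨ l + 1 = 2 ^ a) ∧ (l.Prime ∨ l = 9) := by
        rcases h5 with h5 | ⟨-, h5⟩
        · unfold pt at h5
          exact ⟨_, Or.inr h5.symm, Or.inl (prime_add (F := F) h5)⟩
        · unfold pt at h5
          have h7 : 2 ^ ((l - 1).factorization 2) + 1 = l := by omega
          exact ⟨_, Or.inl h7.symm, prime_sub (F := F) h7⟩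
      obtain ⟨a, ha, hlp⟩ := hla
      have ha1 : a ≠ 0 := by
        rintro rfl
        rw [pow_zero] at ha
        omega
      have hlodd : ¬ 2 ∣ l := by
        have : 2 ∣ 2 ^ a := dvd_pow_self 2 ha1
        rcases ha with h6 | h6 <;> omega
      have hg : Nat.gcd 2 (l - 1) = 2 := Nat.gcd_eq_left (by omega)
      rw [hg] at hc
      have hwa := w_le h4 hH0 hc ha hw
      rcases hlp with hlp | hlp
      · have hlH : l ∣ Nat.card H := by
          have h6 : l ∣ 2 * Nat.card H := by rw [hc]; exact dvd_mul_right _ _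
          rcases (hlp.dvd_mul).mp h6 with h7 | h7
          · have := Nat.le_of_dvd (by norm_num) h7
            omega
          · exact h7
        obtain ⟨i, hi1, hi2, hi3⟩ := hdiv l hlp (by rintro h8; exact hlodd (by rw [h8])) hlH
        rw [← dvd_pow_sub_one_iff (by norm_num)] at hi3
        have hn := hnum.hn
        have hf := hnum.hf
        have h8 : 1 ≤ f * i := Nat.mul_pos hf hi1
        have h9 : 2 ^ 1 ≤ 2 ^ (f * i) := Nat.pow_le_pow_right (by norm_num) h8
        have h11 := Nat.le_of_dvd (by omega) hi3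
        have h12 : 2 ^ a ≤ 2 ^ (f * i) := by rcases ha with h6 | h6 <;> omega
        have h13 : a ≤ f * i := (Nat.pow_le_pow_iff_right (by norm_num)).mp h12
        have h14 : f * i ≤ f * n := Nat.mul_le_mul_left f hi2
        have h15 : w ≤ f * n := by omega
        have hv := hnum.hv
        have hkn := hnum.k_lt
        have hk := hnum.hk
        have h7n := hnum.ex2 rfl
        obtain ⟨m, rfl⟩ : ∃ m, n = m + 4 := ⟨n - 4, by omega⟩
        rw [show m + 4 - 1 = m + 3 by omega] at hv
        have e1 : f * ((m + 4) * (m + 3)) = 2 * (f * (m + 4)) + f * ((m + 4) * (m + 1)) := by ring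
        have e2 : f * ((m + 4) * (m + 1)) ≤ 2 * k := by omega
        rcases Nat.eq_zero_or_pos m with rfl | hm
        · have hk4 : k ≤ 2 := by
            rcases hk with h1 | h1
            · omega
            · by_contra hcon
              have : 2 ^ 2 ≤ 2 ^ (k - 1) := Nat.pow_le_pow_right (by norm_num) (by omega)
              omega
          omega
        · have e3 : 1 * ((m + 4) * (m + 1)) ≤ f * ((m + 4) * (m + 1)) := Nat.mul_le_mul_right _ hf
          nlinarith
      · have h6 : Nat.card H < 2 ^ 10 := by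
          rw [hlp] at hc; omega
        have h7 := fac_le hH0 h6 Nat.prime_two
        omega
    · have h6 := h5.resolve_right (fun h7 => hp2 h7.1)
      have hc1 : Nat.gcd 2 (l - 1) ≠ 0 := (Nat.gcd_pos_of_pos_left _ (by norm_num)).ne'
      have hle : Nat.card H ≤ l * (l ^ 2 - 1) := by
        rw [← hc]
        exact Nat.le_mul_of_pos_left _ (Nat.pos_of_ne_zero hc1)
      rcases pow_case hp hp2 h6 with h7 | ⟨h7, h8⟩
      · have h9 : Nat.card H < p ^ 5 := by
          rw [← h7]
          refine lt_of_le_of_lt hle ?_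
          have h10 : l ^ 2 - 1 < l ^ 2 := by
            have : 0 < l ^ 2 := by positivity
            omega
          calc l * (l ^ 2 - 1) < l * l ^ 2 := Nat.mul_lt_mul_of_pos_left h10 (by omega)
            _ = l ^ 3 := by ring
            _ ≤ (l + 1) ^ 3 := Nat.pow_le_pow_left (by omega) 3
            _ ≤ (l + 1) ^ 5 := Nat.pow_le_pow_right (by omega) (by norm_num)
        have h10 := fac_le hH0 h9 hp
        omega
      · have h9 : Nat.card H < 3 ^ 8 := by
          refine lt_of_le_of_lt hle ?_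
          have : l = 8 := h8
          rw [this]; norm_num
        have h10 := fac_le hH0 h9 Nat.prime_three
        have := hw3 h7
        rw [h7] at hw
        omega
  · obtain ⟨rfl, F, _, _, hF, ⟨e⟩⟩ := h
    have hc := psl_eq (F := F) (n := 3) (by norm_num)
    rw [← Nat.card_congr e.toEquiv, hF] at hc
    have h1 : sA 2 (3 - 1) = 168 := by decide
    have h2 : Nat.gcd 3 (2 - 1) = 1 := by decide
    rw [h1, h2, one_mul] at hc
    have h10 := fac_le hH0 (w := 5) (p := 7) (by rw [hc]; norm_num) (by norm_num)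
    omega
  · obtain ⟨rfl, F, _, _, hF, ⟨e⟩⟩ := h
    have hc := psu_eq (F := F) (n := 3) (q := 3) (by rw [hF]; norm_num) (by norm_num)
    rw [← Nat.card_congr e.toEquiv] at hc
    have h1 : sU 3 (3 - 1) = 2 ^ 5 * 189 := by decide
    have h2 : Nat.gcd 3 (3 + 1) = 1 := by decide
    rw [h1, h2, one_mul] at hc
    have h4 := fac_eq Nat.prime_two hc (by norm_num) (by norm_num)
    have := hw2 rfl
    omega
  · obtain ⟨rfl, F, _, _, hF, ⟨⟨e⟩⟩ | ⟨⟨e⟩⟩⟩ := h
    · have hc := psu_eq (F := F) (n := 4) (q := 2) (by rw [hF]; norm_num) (by norm_num)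
      rw [← Nat.card_congr e.toEquiv] at hc
      have h1 : sU 2 (4 - 1) = 3 ^ 4 * 320 := by decide
      have h2 : Nat.gcd 4 (2 + 1) = 1 := by decide
      rw [h1, h2, one_mul] at hc
      have h4 := fac_eq Nat.prime_three hc (by norm_num) (by norm_num)
      omega
    · have hc := psu_eq (F := F) (n := 5) (q := 2) (by rw [hF]; norm_num) (by norm_num)
      rw [← Nat.card_congr e.toEquiv] at hc
      have h1 : sU 2 (5 - 1) = 3 ^ 5 * 56320 := by decide +kernel
      have h2 : Nat.gcd 5 (2 + 1) = 1 := by decide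
      rw [h1, h2, one_mul] at hc
      have h4 := fac_eq Nat.prime_three hc (by norm_num) (by norm_num)
      have := hw3 rfl
      omega
  · obtain ⟨rfl, F, _, _, hF, ⟨e⟩⟩ := h
    have hc := psp_eq (F := F) (m := 2) (by norm_num)
    rw [← Nat.card_congr e.toEquiv, hF] at hc
    have h1 : tC 3 2 = 51840 := by decide
    have h2 : Nat.gcd 2 (3 - 1) = 2 := by decide
    rw [h1, h2] at hc
    have hc' : Nat.card H = 2 ^ 6 * 405 := by omega
    have h4 := fac_eq Nat.prime_two hc' (by norm_num) (by norm_num)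
    have := hw2 rfl
    omega
  · obtain ⟨rfl, x, hx, h1, h2⟩ := h
    have hcard := T.spor H x hx h2
    have h10 := hw2 rfl
    obtain ⟨s1, s2, s3, s4, s5, s6⟩ := hnum.spor
    have key : ∀ (l m : ℕ), l.Prime → l ≠ 2 → orderOf ((2 : ℕ) : ZMod l) = m → l ∣ x.2 →
        ∃ i, 1 ≤ i ∧ i ≤ n ∧ m ∣ f * i := by
      intro l m hl hl2 ho hlx
      obtain ⟨i, h3, h4, h5⟩ := hdiv l hl hl2 (by rw [hcard]; exact hlx)
      exact ⟨i, h3, h4, by rw [← ho]; exact h5⟩
    have hfac : ∀ a m : ℕ, x.2 = 2 ^ a * m → ¬ 2 ∣ m → m ≠ 0 → w = a := by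
      intro a m h3 h4 h5
      rw [← hw, hcard]
      exact fac_eq Nat.prime_two h3 h4 h5
    simp only [OrdDiv.spor, List.mem_cons, List.not_mem_nil, or_false] at hx
    rcases hx with rfl | rfl | rfl | rfl | rfl | rfl | rfl | rfl | rfl | rfl | rfl | rfl | rfl | rfl | rfl | rfl |
      rfl | rfl | rfl | rfl | rfl | rfl | rfl | rfl | rfl | rfl | rfl
    · exact s2 (hfac 11 8775 (by norm_num) (by norm_num) (by norm_num))
        (key 13 12 (by norm_num) (by norm_num) ord13 (by norm_num))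
    · exact absurd h1 (by decide)
    · have := hfac 6 1485 (by norm_num) (by norm_num) (by norm_num); omega
    · have := hfac 7 3465 (by norm_num) (by norm_num) (by norm_num); omega
    · exact absurd h1 (by decide)
    · exact s1 (Or.inl (hfac 10 239085 (by norm_num) (by norm_num) (by norm_num)))
        (key 23 11 (by norm_num) (by norm_num) ord23 (by norm_num))
    · exact absurd h1 (by decide)
    · have := hfac 7 4725 (by norm_num) (by norm_num) (by norm_num); omega
    · exact absurd h1 (by decide)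
    · exact absurd h1 (by decide)
    · exact s1 (Or.inr (Or.inr (hfac 21 1982582476875 (by norm_num) (by norm_num) (by norm_num))))
        (key 23 11 (by norm_num) (by norm_num) ord23 (by norm_num))
    · exact s1 (Or.inr (Or.inl (hfac 18 161382375 (by norm_num) (by norm_num) (by norm_num))))
        (key 23 11 (by norm_num) (by norm_num) ord23 (by norm_num))
    · exact absurd h1 (by decide)
    · exact absurd h1 (by decide)
    · have := hfac 9 86625 (by norm_num) (by norm_num) (by norm_num); omega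
    · exact s3 (hfac 13 54729675 (by norm_num) (by norm_num) (by norm_num))
    · exact absurd h1 (by decide)
    · exact s4 (hfac 14 8906625 (by norm_num) (by norm_num) (by norm_num))
    · exact absurd h1 (by decide)
    · exact absurd h1 (by decide)
    · exact s5 (hfac 17 492567075 (by norm_num) (by norm_num) (by norm_num))
        ⟨key 13 12 (by norm_num) (by norm_num) ord13 (by norm_num),
          key 11 10 (by norm_num) (by norm_num) ord11 (by norm_num)⟩
    · exact absurd h1 (by decide)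
    · exact absurd h1 (by decide)
    · exact absurd h1 (by decide)
    · exact absurd h1 (by decide)
    · exact s6 (hfac 41 1889375872099856765625 (by norm_num) (by norm_num) (by norm_num))
        (key 47 23 (by norm_num) (by norm_num) ord47 (by norm_num))
    · exact absurd h1 (by decide)

end Cfsg.Agent.H363.PslExc
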