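import Mathlib
import Cfsg.Agent.H363.PslTorus
import Cfsg.Agent.H363.PslThree
import Cfsg.Agent.H902.Names
import Cfsg.Agent.H902.SameD

/-!
# The properties of a group with the order and the spectrum of `PSL_n(q)`
-/

set_option autoImplicit false

namespace Cfsg.Agent.H363.PslGen

open Cfsg.Agent.H902 Cfsg.Agent.H363.Frat Cfsg.Agent.H363.PslSpec Finset

universe u v

/-- the properties used -/
structure GHyp (G : Type u) [Group G] [Finite G] (p f n : ℕ) : Prop where
  real : Art.Real (.L n) p f (Nat.card G)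
  nonadj : ∀ l : ℕ, l.Prime → (orderOf (p : ZMod l) = f * n ∨ orderOf (p : ZMod l) = f * (n - 1)) →
    NonAdj G l p
  dvdn : ∀ l : ℕ, l.Prime → orderOf (p : ZMod l) = f * n → ∀ x : G, l ∣ orderOf x →
    orderOf x ∣ (p ^ f) ^ n - 1
  dvdn1 : ∀ l : ℕ, l.Prime → orderOf (p : ZMod l) = f * (n - 1) → ∀ x : G, l ∣ orderOf x →
    orderOf x ∣ (p ^ f) ^ (n - 1) - 1
  cyc : ∀ l : ℕ, l.Prime → (orderOf (p : ZMod l) = f * n ∨ orderOf (p : ZMod l) = f * (n - 1)) →
    ∃ x : G, l ^ (Nat.card G).factorization l ∣ orderOf x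
  expp : ∀ (x : G) (k : ℕ), orderOf x = p ^ k → k = 0 ∨ p ^ (k - 1) < n

theorem gcd_dvd_quot {q : ℕ} (hq1 : 1 < q) (n : ℕ) : Nat.gcd n (q - 1) ∣ (q ^ n - 1) / (q - 1) := by
  have h3 : (q ^ n - 1) / (q - 1) = ∑ i ∈ Finset.range n, q ^ i := (Nat.geomSum_eq (by omega) n).symm
  have h4 : ∑ i ∈ Finset.range n, q ^ i ≡ n [MOD (q - 1)] := by
    have h5 : ∀ i ∈ Finset.range n, q ^ i ≡ 1 [MOD (q - 1)] := by
      intro i _
      have : q ≡ 1 [MOD (q - 1)] := ((Nat.modEq_iff_dvd' hq1.le).mpr dvd_rfl).symm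
      simpa using this.pow i
    have h6 : ∀ s : Finset ℕ, (∀ i ∈ s, q ^ i ≡ 1 [MOD (q - 1)]) →
        ∑ i ∈ s, q ^ i ≡ s.card [MOD (q - 1)] := by
      intro s
      induction s using Finset.induction_on with
      | empty => intro _; rfl
      | insert a s ha ih =>
        intro hs
        rw [Finset.sum_insert ha, Finset.card_insert_of_notMem ha, add_comm]
        exact (ih (fun i hi => hs i (Finset.mem_insert_of_mem hi))).add
          (hs a (Finset.mem_insert_self _ _))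
    simpa using h6 _ h5
  rw [h3]
  have h7 : Nat.gcd n (q - 1) ∣ q - 1 := Nat.gcd_dvd_right _ _
  have h8 : ∑ i ∈ Finset.range n, q ^ i ≡ n [MOD Nat.gcd n (q - 1)] := h4.of_dvd h7
  exact (h8.dvd_iff dvd_rfl).mpr (Nat.gcd_dvd_left _ _)

section number

variable {n p f M : ℕ}

theorem prime_cases (h : Art.Real (.L n) p f M) {l : ℕ} (hl : l.Prime) (hlp : l ≠ p) (hd : l ∣ M) :
    ∃ i, 1 ≤ i ∧ i ≤ n ∧ orderOf (p : ZMod l) ∣ f * i := by
  have h1 := h.dvd_num_of_dvd hl hlp hd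
  have h2 : l ∣ ∏ i ∈ range (n - 1), ((p ^ f) ^ (i + 2) - 1) := h1
  obtain ⟨i, hi, h3⟩ := (hl.prime.dvd_finsetProd_iff _).mp h2
  rw [mem_range] at hi
  exact ⟨i + 2, by omega, by omega, (Art.dvd_iff h.hp _).mp h3⟩

theorem ne_of_ord (h : Art.Real (.L n) p f M) {l e : ℕ} (hl : l.Prime) (he : 1 ≤ e)
    (ho : orderOf (p : ZMod l) = f * e) : l ≠ p :=
  Art.ne_of_order hl (n := f * e) (Nat.mul_pos h.hf he) ho

/-- the full `l`-part of the order -/
theorem part_dvd (h : Art.Real (.L n) p f M) {l e : ℕ} (hl : l.Prime) (he2 : 2 ≤ e) (hen : e ≤ n)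
    (ho : orderOf (p : ZMod l) = f * e) (hne : n < 2 * e) :
    l ^ M.factorization l ∣ (p ^ f) ^ e - 1 := by
  have hlp := ne_of_ord h hl (by omega) ho
  have hlq := h.not_dvd_q hl hlp
  have h1 : l ^ M.factorization l ∣ (p ^ f) ^ Art.NN (.L n) * Art.num (.L n) (p ^ f) := by
    rw [← h.eq]
    exact (Nat.ordProj_dvd M l).mul_left _
  have h2 : l ^ M.factorization l ∣ ∏ i ∈ range (n - 1), ((p ^ f) ^ (i + 2) - 1) := by
    refine Nat.Coprime.dvd_of_dvd_mul_left ?_ h1
    exact Nat.Coprime.pow _ _ ((Nat.Prime.coprime_iff_not_dvd hl).mpr hlq)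
  have h3 : e - 2 ∈ range (n - 1) := by rw [mem_range]; omega
  rw [← Finset.mul_prod_erase _ _ h3] at h2
  have h4 : e - 2 + 2 = e := by omega
  rw [h4] at h2
  refine Nat.Coprime.dvd_of_dvd_mul_right ?_ h2
  apply Nat.Coprime.pow_left
  apply Nat.Coprime.prod_right
  intro i hi
  rw [mem_erase, mem_range] at hi
  rw [Nat.Prime.coprime_iff_not_dvd hl]
  intro h5
  rw [Art.dvd_iff h.hp, ho] at h5
  have h6 : e ∣ i + 2 := (Nat.mul_dvd_mul_iff_left h.hf).mp h5
  obtain ⟨c, hc⟩ := h6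
  have hc2 : c < 2 := by
    by_contra hcon
    have : e * 2 ≤ e * c := Nat.mul_le_mul_left _ (by omega)
    omega
  have : c = 0 ∨ c = 1 := by omega
  rcases this with rfl | rfl
  · omega
  · omega

theorem dvd_card (h : Art.Real (.L n) p f M) (hn : 4 ≤ n) {l : ℕ} (hl : l.Prime)
    (ho : orderOf (p : ZMod l) = f * n ∨ orderOf (p : ZMod l) = f * (n - 1)) : l ∣ M := by
  have hf := h.hf
  rcases ho with ho | ho
  · have h1 : 1 * 3 ≤ f * n := Nat.mul_le_mul hf (by omega)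
    exact h.dvd_of_order_DM hl ho h1
  · have h1 : 1 * 3 ≤ f * (n - 1) := Nat.mul_le_mul hf (by omega)
    have h2 : Art.DM (.L n) < 2 * Art.BM (.L n) := by
      show n < 2 * (n - 1)
      omega
    exact h.dvd_of_order_BM hl h2 ho h1

theorem card_sq_le (h : Art.Real (.L n) p f M) (hn : 1 ≤ n) :
    M ^ 2 ≤ (p ^ f) ^ (2 * ((n - 1) * (n + 1))) := by
  have h1 := h.M_le
  have h2 : (∏ i ∈ range (n - 1), ((p ^ f) ^ (i + 2) - 1)) ^ 2 ≤ (p ^ f) ^ ((n - 1) * (n - 1 + 3)) :=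
    Art.numL_sq_le (n - 1)
  have h3 : 2 * (n * (n - 1) / 2) = n * (n - 1) := by
    have := Cfsg.Agent.H902.Art.two_mul_half n
    omega
  calc M ^ 2 ≤ ((p ^ f) ^ Art.NN (.L n) * Art.num (.L n) (p ^ f)) ^ 2 := Nat.pow_le_pow_left h1 2
    _ = (p ^ f) ^ (2 * (n * (n - 1) / 2)) * (∏ i ∈ range (n - 1), ((p ^ f) ^ (i + 2) - 1)) ^ 2 := by
        show ((p ^ f) ^ (n * (n - 1) / 2) * ∏ i ∈ range (n - 1), ((p ^ f) ^ (i + 2) - 1)) ^ 2 = _
        rw [mul_pow, ← pow_mul, mul_comm _ 2]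
    _ ≤ (p ^ f) ^ (2 * (n * (n - 1) / 2)) * (p ^ f) ^ ((n - 1) * (n - 1 + 3)) := Nat.mul_le_mul_left _ h2
    _ = (p ^ f) ^ (2 * ((n - 1) * (n + 1))) := by
        rw [h3, ← pow_add]
        congr 1
        obtain ⟨k, rfl⟩ : ∃ k, n = k + 1 := ⟨n - 1, by omega⟩
        rw [Nat.add_sub_cancel]; ring

theorem fac_card (h : Art.Real (.L n) p f M) : 2 * M.factorization p = f * (n * (n - 1)) := by
  have h1 := Art.P_prime_exp h
  have h3 : 2 * (n * (n - 1) / 2) = n * (n - 1) := by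
    have := Cfsg.Agent.H902.Art.two_mul_half n
    omega
  rw [← h1]
  show 2 * (f * (n * (n - 1) / 2)) = _
  calc 2 * (f * (n * (n - 1) / 2)) = f * (2 * (n * (n - 1) / 2)) := by ring
    _ = _ := by rw [h3]

end number

/-- **The properties of a group with the order and the spectrum of `PSL_n(q)`.** -/
theorem GHyp.of_spec {F : Type} [Field F] [Fintype F] {p f n : ℕ} (hp : p.Prime) (hf : 1 ≤ f)
    (hF : Fintype.card F = p ^ f) (hn : 4 ≤ n) {G : Type v} [Group G] [Finite G]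
    (hspec : Set.range (orderOf : G → ℕ) =
      Set.range (orderOf : Matrix.ProjectiveSpecialLinearGroup (Fin n) F → ℕ))
    (hcard : Nat.card G = Nat.card (Matrix.ProjectiveSpecialLinearGroup (Fin n) F)) :
    GHyp G p f n := by
  have hreal : Art.Real (.L n) p f (Nat.card G) := by
    rw [hcard]
    exact Names.psl_real hp hf hF (by omega) (fun h => by omega)
  have hcF : CharP F p := by
    obtain ⟨p', hchar⟩ := CharP.exists F
    obtain ⟨f', hp', hf'⟩ := FiniteField.card F p'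
    have h1 : p ∣ p' ^ (f' : ℕ) := by
      rw [← hf', hF]; exact dvd_pow_self p (by omega)
    have : p = p' := (Nat.prime_dvd_prime_iff_eq hp hp').mp (hp.dvd_of_dvd_pow h1)
    rw [this]; exact hchar
  have hNF : Nat.card F = p ^ f := by rw [Nat.card_eq_fintype_card, hF]
  have htr : ∀ g : G, ∃ y : Matrix.ProjectiveSpecialLinearGroup (Fin n) F, orderOf y = orderOf g := by
    intro g
    have h1 : orderOf g ∈ Set.range (orderOf : Matrix.ProjectiveSpecialLinearGroup (Fin n) F → ℕ) := by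
      rw [← hspec]; exact ⟨g, rfl⟩
    exact h1
  have htr' : ∀ y : Matrix.ProjectiveSpecialLinearGroup (Fin n) F, ∃ g : G, orderOf g = orderOf y := by
    intro y
    have h1 : orderOf y ∈ Set.range (orderOf : G → ℕ) := by
      rw [hspec]; exact ⟨y, rfl⟩
    exact h1
  have hd : ∀ {l e d : ℕ}, orderOf (p : ZMod l) = f * e → (l ∣ (p ^ f) ^ d - 1 ↔ e ∣ d) := by
    intro l e d ho
    rw [Art.dvd_iff hp, ho]
    exact Nat.mul_dvd_mul_iff_left hf
  have hq0 : ∀ {l e : ℕ}, l.Prime → 1 ≤ e → orderOf (p : ZMod l) = f * e → ¬ l ∣ p ^ f := by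
    intro l e hl he ho
    exact hreal.not_dvd_q hl (ne_of_ord hreal hl he ho)
  have hgc : ∀ {l e : ℕ}, 2 ≤ e → orderOf (p : ZMod l) = f * e → ¬ l ∣ Nat.gcd n (p ^ f - 1) := by
    intro l e he ho h1
    have h2 : l ∣ (p ^ f) ^ 1 - 1 := by rw [pow_one]; exact h1.trans (Nat.gcd_dvd_right _ _)
    rw [hd ho] at h2
    have := Nat.le_of_dvd one_pos h2
    omega
  have hsd : ∀ {l e : ℕ}, orderOf (p : ZMod l) = f * e → ∀ d, 0 < d → d < e → ¬ l ∣ (p ^ f) ^ d - 1 := by
    intro l e ho d hd0 hde h1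
    rw [hd ho] at h1
    have := Nat.le_of_dvd hd0 h1
    omega
  refine ⟨hreal, ?_, ?_, ?_, ?_, ?_⟩
  · intro l hl ho g hg
    obtain ⟨y, hy⟩ := htr g
    have key : ∀ e, n ≤ e + 1 → 2 ≤ e → orderOf (p : ZMod l) = f * e → False := by
      intro e he he2 ho
      refine not_dvd_orderOf (F := F) (n := n) hp (l := l) (j := 0) (e := e) hl
        (by rw [hNF]; exact hq0 hl (by omega) ho) (by rw [hNF]; exact hgc he2 ho) ?_ (by omega) he y ?_
      · intro d h1
        rw [zero_add, pow_one, hNF, hd ho] at h1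
        exact h1
      · rw [zero_add, pow_one, hy, hg]
    rcases ho with ho | ho
    · exact key n (by omega) (by omega) ho
    · exact key (n - 1) (by omega) (by omega) ho
  · intro l hl ho g hg
    obtain ⟨y, hy⟩ := htr g
    have h1 := orderOf_dvd_singer (F := F) (n := n) hl (by omega)
      (by rw [hNF, hd ho]) (by rw [hNF]; exact hsd ho) y (by rw [hy]; exact hg)
    rw [hy, hNF] at h1
    refine h1.trans ((Nat.div_dvd_of_dvd ?_).trans (Nat.div_dvd_of_dvd ?_))
    · rw [hF.symm]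
      exact gcd_dvd_quot (Fintype.one_lt_card (α := F)) n
    · have := Nat.sub_dvd_pow_sub_pow (p ^ f) 1 n
      rwa [one_pow] at this
  · intro l hl ho g hg
    obtain ⟨y, hy⟩ := htr g
    have h1 := PslTorus.orderOf_dvd_torus (F := F) (n := n) hl (by omega)
      (by rw [hNF, hd ho]) (by rw [hNF]; exact hsd ho) (by rw [hNF]; exact hq0 hl (by omega) ho) y
      (by rw [hy]; exact hg)
    rwa [hy, hNF] at h1
  · intro l hl ho
    rcases ho with ho | ho
    · obtain ⟨y, hy⟩ := PslSpec.exists_singer (F := F) (n := n) (by omega)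
      obtain ⟨g, hg⟩ := htr' y
      refine ⟨g, ?_⟩
      rw [hg, hy, hNF]
      have h1 := part_dvd hreal hl (by omega) le_rfl ho (by omega)
      have hdv : p ^ f - 1 ∣ (p ^ f) ^ n - 1 := by
        have := Nat.sub_dvd_pow_sub_pow (p ^ f) 1 n
        rwa [one_pow] at this
      have hcd : Nat.gcd n (p ^ f - 1) ∣ ((p ^ f) ^ n - 1) / (p ^ f - 1) := by
        rw [hF.symm]
        exact gcd_dvd_quot (Fintype.one_lt_card (α := F)) n
      have h2 : (p ^ f) ^ n - 1 = Nat.gcd n (p ^ f - 1) * (p ^ f - 1) *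
          (((p ^ f) ^ n - 1) / (p ^ f - 1) / Nat.gcd n (p ^ f - 1)) := by
        rw [mul_comm (Nat.gcd n (p ^ f - 1)), mul_assoc, Nat.mul_div_cancel' hcd, Nat.mul_div_cancel' hdv]
      rw [h2] at h1
      refine Nat.Coprime.dvd_of_dvd_mul_left ?_ h1
      apply Nat.Coprime.pow_left
      rw [Nat.Prime.coprime_iff_not_dvd hl]
      intro h3
      rcases (hl.dvd_mul).mp h3 with h4 | h4
      · exact hgc (by omega) ho h4
      · have h5 : l ∣ (p ^ f) ^ 1 - 1 := by rw [pow_one]; exact h4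
        rw [hd ho] at h5
        have := Nat.le_of_dvd one_pos h5
        omega
    · obtain ⟨y, hy⟩ := PslTorus.exists_big (F := F) (n := n) (by omega)
      obtain ⟨g, hg⟩ := htr' y
      refine ⟨g, ?_⟩
      rw [hNF, ← hg] at hy
      have h1 := (part_dvd hreal hl (by omega) (by omega) ho (by omega)).trans hy
      refine Nat.Coprime.dvd_of_dvd_mul_right ?_ h1
      apply Nat.Coprime.pow_left
      rw [Nat.Prime.coprime_iff_not_dvd hl]
      exact hgc (by omega) ho
  · intro x k hx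
    by_contra hcon
    push Not at hcon
    obtain ⟨hk, hkn⟩ := hcon
    obtain ⟨y, hy⟩ := htr x
    have h1 := pow_eq_one_of_isPElement (F := F) (n := n) hp (k := k - 1) hkn y (a := k) (by rw [hy, hx])
    have h2 := orderOf_dvd_of_pow_eq_one h1
    rw [hy, hx, Nat.pow_dvd_pow_iff_le_right hp.one_lt] at h2
    omega

end Cfsg.Agent.H363.PslGen
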