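import Mathlib
import Cfsg.Agent.H363.MasterB
import Cfsg.Agent.H363.PslDD
import Cfsg.Agent.H363.PslHyp
import Cfsg.Agent.H363.PslArith
import Cfsg.Agent.H363.PslExc
import Cfsg.Agent.H365.Cube

/-!
# Groups with the order and the spectrum of `PSL_n(q)`, `n ≥ 4`, are simple
-/

set_option autoImplicit false

namespace Cfsg.Agent.H363.PslGen

open Cfsg Cfsg.Agent.H902 Cfsg.Agent.H363.Frat Cfsg.Agent.H363.Master Cfsg.Agent.H363.PslLie Finset
open Cfsg.Agent.Lib.Zsigmondy Cfsg.Agent.H365 Cfsg.Agent.H365.PPart Cfsg.Agent.H363.PslExc Cfsg.Agent.H363.PslArith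

universe u

/-- the bound for the exponent of the index -/
theorem four_k_lt {p w k n f : ℕ} (h : Num p w k n f) (h3 : p = 2 → f * (n - 1) ≠ 6) :
    4 * k < f * ((n - 1) * (n - 2)) := by
  have hn := h.hn
  have hf := h.hf
  have hk := h.hk
  have hkn := h.k_lt
  have hp := h.hp.two_le
  rcases (by omega : n = 4 ∨ n = 5 ∨ n = 6 ∨ 7 ≤ n) with rfl | rfl | rfl | h7
  · rcases (by omega : p = 2 ∨ p = 3 ∨ 4 ≤ p) with rfl | rfl | h5
    · have h2 := h.ex2 rfl
      have hk2 : k ≤ 2 := by
        rcases hk with h1 | h1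
        · omega
        · by_contra hcon
          have : 2 ^ 2 ≤ 2 ^ (k - 1) := Nat.pow_le_pow_right (by norm_num) (by omega)
          omega
      omega
    · have h2 := h.ex3 rfl
      have hk2 : k ≤ 2 := by
        rcases hk with h1 | h1
        · omega
        · by_contra hcon
          have : 3 ^ 2 ≤ 3 ^ (k - 1) := Nat.pow_le_pow_right (by norm_num) (by omega)
          omega
      omega
    · have hk2 : k ≤ 1 := by
        rcases hk with h1 | h1
        · omega
        · by_contra hcon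
          have h6 : 4 ^ 1 ≤ 4 ^ (k - 1) := Nat.pow_le_pow_right (by norm_num) (by omega)
          have h7 : 4 ^ (k - 1) ≤ p ^ (k - 1) := Nat.pow_le_pow_left h5 _
          omega
      omega
  · rcases (by omega : p = 2 ∨ 3 ≤ p) with rfl | h5
    · have h2 := h.ex2 rfl
      have hk2 : k ≤ 3 := by
        rcases hk with h1 | h1
        · omega
        · by_contra hcon
          have : 2 ^ 3 ≤ 2 ^ (k - 1) := Nat.pow_le_pow_right (by norm_num) (by omega)
          omega
      omega
    · have hk2 : k ≤ 2 := by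
        rcases hk with h1 | h1
        · omega
        · by_contra hcon
          have h6 : 3 ^ 2 ≤ 3 ^ (k - 1) := Nat.pow_le_pow_right (by norm_num) (by omega)
          have h7 : 3 ^ (k - 1) ≤ p ^ (k - 1) := Nat.pow_le_pow_left h5 _
          omega
      omega
  · have hk2 : k ≤ 3 := by
      rcases hk with h1 | h1
      · omega
      · by_contra hcon
        have h6 : 2 ^ 3 ≤ 2 ^ (k - 1) := Nat.pow_le_pow_right (by norm_num) (by omega)
        have h7 : 2 ^ (k - 1) ≤ p ^ (k - 1) := Nat.pow_le_pow_left hp _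
        omega
    omega
  · have h1 : (n - 1) * 5 ≤ (n - 1) * (n - 2) := Nat.mul_le_mul_left _ (by omega)
    have h2 : 1 * ((n - 1) * (n - 2)) ≤ f * ((n - 1) * (n - 2)) := Nat.mul_le_mul_right _ hf
    omega

/-- the divisor `p ^ k` of the index -/
theorem exists_num {G : Type u} [Group G] [Finite G] {p f n : ℕ} (h : GHyp G p f n) (hn : 4 ≤ n)
    (ex2 : p = 2 → 7 ≤ f * n ∧ f * (n - 1) ≠ 6) (ex3 : p = 3 → 5 ≤ f * n)
    {K : Subgroup G} [K.Normal] (hpK : ¬ p ∣ Nat.card K) (N : Subgroup (G ⧸ K)) [N.Normal] {l : ℕ}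
    (hl : l.Prime) (hlo : orderOf (p : ZMod l) = f * n ∨ orderOf (p : ZMod l) = f * (n - 1))
    (hlK : ¬ l ∣ Nat.card K) (hlN : l ∣ Nat.card N) :
    Num p ((Nat.card N).factorization p) (N.index.factorization p) n f := by
  have hp := h.real.hp
  have hf := h.real.hf
  have : Fact p.Prime := ⟨hp⟩
  have h3f : f * 3 ≤ f * (n - 1) := Nat.mul_le_mul_left f (by omega)
  have h3n : f * 3 ≤ f * n := Nat.mul_le_mul_left f (by omega)
  have hlp : l ≠ p := by
    rcases hlo with h1 | h1
    · exact Art.ne_of_order hl (n := f * n) (by omega) h1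
    · exact Art.ne_of_order hl (n := f * (n - 1)) (by omega) h1
  have hlp' : ¬ l ∣ p := fun h0 => hlp ((Nat.prime_dvd_prime_iff_eq hl hp).mp h0)
  have hl2 : l ≠ 2 := by
    rintro rfl
    have h1 := Nat.le_of_dvd (by norm_num) (orderOf_dvd_pred hl hlp')
    rcases hlo with h2 | h2 <;> omega
  set k := N.index.factorization p with hk
  have hi0 : N.index ≠ 0 := Subgroup.index_ne_zero_of_finite
  have hpk : p ^ k ∣ N.index := Nat.ordProj_dvd _ _
  obtain ⟨y, hy⟩ := exists_orderOf_eq hp hl hl2 hlp ((h.nonadj l hl hlo).quotient K)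
    (exists_orderOf_quotient hl (h.cyc l hl hlo) hlK) N hlN hpk
  obtain ⟨z, c, hc⟩ := exists_orderOf_lift ⟨y, hy⟩
  have hc0 : c ≠ 0 := by
    rintro rfl
    rw [mul_zero] at hc
    exact (orderOf_pos z).ne' hc
  have ho : orderOf (z ^ c) = p ^ k := by
    rw [orderOf_pow' z hc0, hc, Nat.gcd_eq_right (Dvd.intro_left _ rfl)]
    exact Nat.mul_div_cancel _ (Nat.pos_of_ne_zero hc0)
  refine ⟨hp, hn, hf, ?_, h.expp _ _ ho, fun h2 => (ex2 h2).1, ex3⟩
  rw [← fac_card h.real, ← factorization_quotient hpK, ← N.card_mul_index,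
    Nat.factorization_mul Nat.card_pos.ne' hi0, Finsupp.add_apply]

/-- the order of the section -/
theorem card_lt {G : Type u} [Group G] [Finite G] {p f n : ℕ} (h : GHyp G p f n) (hn : 4 ≤ n)
    {K : Subgroup G} [K.Normal] (N : Subgroup (G ⧸ K)) {w k : ℕ}
    (hk : p ^ k ∣ N.index) (hnum : Num p w k n f) (h4 : 4 * k < f * ((n - 1) * (n - 2))) :
    Nat.card N < p ^ (3 * w) := by
  have hp := h.real.hp
  have h1 := card_sq_le h.real (by omega)
  have hi0 : N.index ≠ 0 := Subgroup.index_ne_zero_of_finite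
  have h2 : Nat.card N * p ^ k ≤ Nat.card G := by
    calc Nat.card N * p ^ k ≤ Nat.card N * N.index :=
          Nat.mul_le_mul_left _ (Nat.le_of_dvd (Nat.pos_of_ne_zero hi0) hk)
      _ = Nat.card (G ⧸ K) := N.card_mul_index
      _ ≤ Nat.card G := Nat.le_of_dvd Nat.card_pos (Subgroup.card_quotient_dvd_card K)
  have hv := hnum.hv
  have e1 : f * ((n - 1) * (n - 2)) + 2 * (f * ((n - 1) * (n + 1))) = 3 * (f * (n * (n - 1))) := by
    obtain ⟨m, rfl⟩ : ∃ m, n = m + 2 := ⟨n - 2, by omega⟩
    rw [show m + 2 - 1 = m + 1 by omega, Nat.add_sub_cancel]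
    ring
  have h5 : Nat.card N * p ^ k ≤ p ^ (f * ((n - 1) * (n + 1))) := by
    have h6 : (Nat.card N * p ^ k) ^ 2 ≤ (p ^ (f * ((n - 1) * (n + 1)))) ^ 2 := by
      calc (Nat.card N * p ^ k) ^ 2 ≤ Nat.card G ^ 2 := Nat.pow_le_pow_left h2 2
        _ ≤ (p ^ f) ^ (2 * ((n - 1) * (n + 1))) := h1
        _ = _ := by rw [← pow_mul, ← pow_mul]; congr 1; ring
    exact (Nat.pow_le_pow_iff_left (by norm_num)).mp h6
  have h7 : p ^ (f * ((n - 1) * (n + 1))) < p ^ (3 * w + k) := Nat.pow_lt_pow_right hp.one_lt (by omega)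
  have h8 : Nat.card N * p ^ k < p ^ (3 * w) * p ^ k := by
    rw [← pow_add]; exact h5.trans_lt h7
  exact Nat.lt_of_mul_lt_mul_right h8

/-- **The simple section has the order of `PSL_n(q)`.** -/
theorem GHyp.simple (T : OrdDiv.OrderTable.{u})
    (known : ∀ (S : Type u) [Group S] [Finite S] [IsSimpleGroup S], IsKnownSimple' S)
    {G : Type u} [Group G] [Finite G] {p f n : ℕ} (h : GHyp G p f n) (hn : 4 ≤ n)
    (ex2 : p = 2 → 7 ≤ f * n ∧ f * (n - 1) ≠ 6) (ex3 : p = 3 → 5 ≤ f * n) : IsSimpleGroup G := by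
  have hreal := h.real
  have hp := hreal.hp
  have hf := hreal.hf
  have h3f : f * 3 ≤ f * (n - 1) := Nat.mul_le_mul_left f (by omega)
  have hfn : f * n = f * (n - 1) + f := by
    obtain ⟨k, rfl⟩ : ∃ k, n = k + 1 := ⟨n - 1, by omega⟩
    rw [Nat.add_sub_cancel]; ring
  obtain ⟨r, hr, hro⟩ := exists_prime_orderOf (a := p) (n := f * n) hp.two_le (by omega)
    (fun h5 => by omega) (fun h5 => by have := ex2 h5.1; omega)
  obtain ⟨s, hs, hso⟩ := exists_prime_orderOf (a := p) (n := f * (n - 1)) hp.two_le (by omega)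
    (fun h5 => by omega) (fun h5 => by have := ex2 h5.1; omega)
  have hrp : r ≠ p := Art.ne_of_order hr (n := f * n) (by omega) hro
  have hsp : s ≠ p := Art.ne_of_order hs (n := f * (n - 1)) (by omega) hso
  have hv := fac_card hreal
  have hnn : f * (n * (n - 1)) = f * n * (n - 1) := by ring
  have hv1 : f * n * 3 ≤ f * n * (n - 1) := Nat.mul_le_mul_left _ (by omega)
  have hrG : r ∣ Nat.card G := dvd_card hreal hn hr (Or.inl hro)
  have hsG : s ∣ Nat.card G := dvd_card hreal hn hs (Or.inr hso)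
  have hpG : p ∣ Nat.card G := by
    by_contra hcon
    rw [Nat.factorization_eq_zero_of_not_dvd hcon] at hv
    omega
  have hle : ∀ {l e : ℕ}, l ^ (Nat.card G).factorization l ∣ (p ^ f) ^ e - 1 → 1 ≤ e → e ≤ n →
      l ^ (Nat.card G).factorization l ≤ p ^ (Nat.card G).factorization p := by
    intro l e h1 he1 he
    have hq : 2 ≤ p ^ f := hreal.q_ge
    have h2 : 1 < (p ^ f) ^ e := Nat.one_lt_pow (by omega) (by omega)
    have h3 := Nat.le_of_dvd (by omega) h1
    have h4 : (p ^ f) ^ e ≤ p ^ (Nat.card G).factorization p := by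
      rw [← pow_mul]
      apply Nat.pow_le_pow_right hp.pos
      have : f * e ≤ f * n := Nat.mul_le_mul_left f he
      omega
    omega
  obtain ⟨K, hK, N, hS⟩ := exists_sect hp hr hs hrp hsp (h.nonadj r hr (Or.inl hro))
    (h.nonadj s hs (Or.inr hso)) hpG hrG hsG
    (hle (part_dvd hreal hr (by omega) le_rfl hro (by omega)) (by omega) le_rfl)
    (hle (part_dvd hreal hs (by omega) (by omega) hso (by omega)) (by omega) (by omega))
    (by
      intro j hj0 hjv h1 h2
      rw [dvd_pow_sub_one_iff hp.one_le, hro] at h1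
      rw [dvd_pow_sub_one_iff hp.one_le, hso] at h2
      obtain ⟨j', rfl⟩ : f ∣ j := (dvd_mul_right f n).trans h1
      rw [Nat.mul_dvd_mul_iff_left hf] at h1 h2
      have hco : Nat.Coprime n (n - 1) := by
        obtain ⟨k, rfl⟩ : ∃ k, n = k + 1 := ⟨n - 1, by omega⟩
        rw [Nat.add_sub_cancel, Nat.coprime_comm]
        simp
      have h3 := Nat.le_of_dvd (by
        rcases Nat.eq_zero_or_pos j' with rfl | h
        · omega
        · exact h) (hco.mul_dvd_of_dvd_of_dvd h1 h2)
      have h4 := Nat.mul_le_mul_left f h3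
      omega)
  have hNn := hS.normal
  have hNs := hS.simple
  have hpK := hS.pK
  -- the prime dividing the order of the section
  obtain ⟨l, hl, hlo, hlK, hlN⟩ : ∃ l : ℕ, l.Prime ∧
      (orderOf (p : ZMod l) = f * n ∨ orderOf (p : ZMod l) = f * (n - 1)) ∧
      ¬ l ∣ Nat.card K ∧ l ∣ Nat.card N := by
    rcases hS.rsN with h1 | h1
    · exact ⟨r, hr, Or.inl hro, hS.rK, h1⟩
    · exact ⟨s, hs, Or.inr hso, hS.sK, h1⟩
  have hnum := exists_num h hn ex2 ex3 hpK N hl hlo hlK hlN
  have h4k := four_k_lt hnum (fun h2 => (ex2 h2).2)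
  have hlt := card_lt h hn N (Nat.ordProj_dvd _ _) hnum h4k
  have hNG : Nat.card N ∣ Nat.card G :=
    (Subgroup.card_subgroup_dvd_card N).trans (Subgroup.card_quotient_dvd_card K)
  have hdiv : ∀ l : ℕ, l.Prime → l ≠ p → l ∣ Nat.card N →
      ∃ i, 1 ≤ i ∧ i ≤ n ∧ orderOf (p : ZMod l) ∣ f * i :=
    fun l hl hlp hlN => prime_cases hreal hl hlp (hlN.trans hNG)
  have hlie : IsLieTypeChar p N := by
    rcases Cube.known_cube T (known N) hS.nab hp with h1 | h1 | h1
    · exfalso
      have h2 : pt p (Nat.card N) ^ 3 = p ^ (3 * (Nat.card N).factorization p) := by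
        unfold pt
        rw [← pow_mul, mul_comm 3]
      omega
    · exact h1
    · exact (exc_false T rfl hnum h1 hdiv).elim
  obtain ⟨X, g, hX, hout⟩ := exists_shape T hp hlie
  have hw := Art.P_prime_exp hX
  set w := (Nat.card N).factorization p with hwdef
  set k := N.index.factorization p with hkdef
  have hvw := hnum.hv
  have h12 : f * ((n - 1) * (n - 2)) ≤ f * (n * (n - 1)) := by
    apply Nat.mul_le_mul_left
    rw [mul_comm n]
    exact Nat.mul_le_mul_left _ (by omega)
  have H : PslArith.Hyp X p g (Nat.card N) n f :=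
    ⟨hX, hn, hf, hdiv, by omega, by omega, ex2⟩
  have hdw : ∀ l e : ℕ, l.Prime → 1 ≤ e → orderOf (p : ZMod l) = f * e → (e = n ∨ e = n - 1) →
      ¬ l ∣ Nat.card K → ¬ l ∣ Nat.card N → f * e ∣ g * Art.NN X := by
    intro l e hl he hlo hen hlK hlN
    have hlo' : orderOf (p : ZMod l) = f * n ∨ orderOf (p : ZMod l) = f * (n - 1) := by
      rcases hen with h1 | h1
      · exact Or.inl (by rw [hlo, h1])
      · exact Or.inr (by rw [hlo, h1])
    have hlp : l ≠ p := ne_of_ord hreal hl he hlo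
    have h1 := dvd_pow_sub_one hp hl hlp ((h.nonadj l hl hlo').quotient K) N
      (dvd_quotient hl hlK (dvd_card hreal hn hl hlo')) hlN
    rw [dvd_pow_sub_one_iff hp.one_le, hlo] at h1
    rw [hw]
    exact h1
  by_cases hA : ∃ l : ℕ, l.Prime ∧ orderOf (p : ZMod l) = f * n ∧ l ∣ Nat.card N
  · obtain ⟨r', hr', hro', hrN'⟩ := hA
    by_cases hB : ∃ l : ℕ, l.Prime ∧ orderOf (p : ZMod l) = f * (n - 1) ∧ l ∣ Nat.card N
    · obtain ⟨s', hs', hso', hsN'⟩ := hB
      rcases H.caseA hr' hro' hrN' hs' hso' hsN' with ⟨rfl, rfl⟩ | ⟨rfl, hgf⟩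
      · have hcard : Nat.card N = Nat.card G := by
          have h1 := hX.eq
          have h2 := hreal.eq
          rw [← h2] at h1
          have h3 : 0 < Art.dd (.L n) (p ^ g) := by
            rw [Nat.pos_iff_ne_zero]
            intro h0
            rw [h0, zero_mul] at h2
            have h4 := hreal.eq
            rw [h0, zero_mul] at h4
            have h5 : Nat.card G ≠ 0 := Nat.card_pos.ne'
            have h6 : Art.dd (.L n) (p ^ g) = Nat.gcd n (p ^ g - 1) := rfl
            rw [h6, Nat.gcd_eq_zero_iff] at h0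
            omega
          exact Nat.eq_of_mul_eq_mul_left h3 h1
        -- `K = ⊥`, `N = ⊤`
        have h2 : Nat.card K * Nat.card (G ⧸ K) = Nat.card G := by
          rw [← Subgroup.index_eq_card, Subgroup.card_mul_index]
        have h3 : Nat.card N ≤ Nat.card (G ⧸ K) :=
          Nat.le_of_dvd Nat.card_pos (Subgroup.card_subgroup_dvd_card N)
        have hKpos : 0 < Nat.card K := Nat.card_pos
        have hGpos : 0 < Nat.card G := Nat.card_pos
        have hK1 : Nat.card K = 1 := by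
          by_contra hcon
          have h4 : 2 * Nat.card (G ⧸ K) ≤ Nat.card K * Nat.card (G ⧸ K) :=
            Nat.mul_le_mul_right _ (by omega)
          omega
        have hKbot : K = ⊥ := Subgroup.card_eq_one.mp hK1
        have hNtop : N = ⊤ := by
          apply Subgroup.eq_top_of_card_eq
          rw [hK1, one_mul] at h2
          omega
        subst hKbot
        subst hNtop
        have e1 : (⊤ : Subgroup (G ⧸ (⊥ : Subgroup G))) ≃* G :=
          Subgroup.topEquiv.trans QuotientGroup.quotientBot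
        exact e1.symm.isSimpleGroup
      · subst hgf
        exact (dd_false hn hpK hreal hX (hout ⟨n, Or.inr rfl⟩) hs' hsN' (h.dvdn1 s' hs' hso')).elim
    · push Not at hB
      exact (H.caseB2 hB (hdw s (n - 1) hs (by omega) hso (Or.inr rfl) hS.sK (hB s hs hso))
        hr' hro' hrN' hs hso).elim
  · push Not at hA
    have hrN := hA r hr hro
    have hsN : s ∣ Nat.card N := hS.rsN.resolve_left hrN
    obtain ⟨rfl, hgf⟩ := H.caseB1 hA (hdw r n hr (by omega) hro (Or.inl rfl) hS.rK hrN) hs hso hsN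
    have hrp' : ¬ r ∣ p := fun h0 => hrp ((Nat.prime_dvd_prime_iff_eq hr hp).mp h0)
    have h1 := Nat.le_of_dvd (by have := hr.two_le; omega) (orderOf_dvd_pred hr hrp')
    rw [hro] at h1
    exact (d_false hp hS.pN (hout ⟨n, Or.inl rfl⟩) hr hrp (by omega) (by omega) hrG hS.rK hrN
      (h.nonadj r hr (Or.inl hro))).elim

end Cfsg.Agent.H363.PslGen
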