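import Mathlib
import Cfsg.Agent.H363.PslCard
import Cfsg.Agent.H902.Artin
import Cfsg.Agent.H902.SameD
import Cfsg.Agent.H902.Cross
import Cfsg.Agent.S0249
import Cfsg.Agent.S0819

/-!
# Simple groups with the order and the spectrum of `PSL_n(q)`
-/

set_option autoImplicit false

namespace Cfsg.Agent.H363.PslIdent

open Cfsg.Agent.H902

universe u v

/-- `A₈` has an element of order 15. -/
theorem exists_fifteen : ∃ x : alternatingGroup (Fin 8), orderOf x = 15 := by
  let a : Equiv.Perm (Fin 8) := c[0, 1, 2] * c[3, 4, 5, 6, 7]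
  have ha : a ∈ alternatingGroup (Fin 8) := by
    rw [Equiv.Perm.mem_alternatingGroup]
    decide +kernel
  refine ⟨⟨a, ha⟩, ?_⟩
  rw [← Subgroup.orderOf_coe]
  show orderOf a = 15
  apply orderOf_eq_of_pow_and_pow_div_prime (by norm_num)
  · decide +kernel
  · intro p hp hd
    have : p = 3 ∨ p = 5 := by
      have h1 : p ∣ 3 * 5 := hd
      rcases (hp.dvd_mul).mp h1 with h | h
      · exact Or.inl ((Nat.prime_dvd_prime_iff_eq hp Nat.prime_three).mp h)
      · exact Or.inr ((Nat.prime_dvd_prime_iff_eq hp Nat.prime_five).mp h)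
    rcases this with rfl | rfl
    · decide +kernel
    · decide +kernel

/-- The order of a symplectic or odd orthogonal group of dimension at least six, odd
characteristic. -/
theorem not_C {n m p f p' f' M : ℕ} (h : Art.Real (.L n) p f M) (h' : Art.Real (.C m) p' f' M)
    (hm : 3 ≤ m) (hodd : Odd (p' ^ f')) : False := by
  have hbig : M ≠ 60 ∧ M ≠ 168 ∧ M ≠ 25920 ∧ M ≠ 20160 := by
    have h1 : (p' ^ f') ^ (m ^ 2) ∣ M := by
      have h2 := h'.eq
      have h3 : (p' ^ f') ^ (m ^ 2) ∣ Nat.gcd 2 (p' ^ f' - 1) * M := by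
        have : Art.dd (.C m) (p' ^ f') = Nat.gcd 2 (p' ^ f' - 1) := rfl
        rw [← this, h2]
        exact dvd_mul_right _ _
      refine Nat.Coprime.dvd_of_dvd_mul_left ?_ h3
      apply Nat.Coprime.pow_left
      apply Nat.Coprime.of_dvd_right (Nat.gcd_dvd_left 2 _)
      exact Nat.coprime_two_right.mpr hodd
    have h2 : p' ^ 9 ∣ M := by
      refine Dvd.dvd.trans ?_ h1
      rw [← pow_mul]
      apply pow_dvd_pow
      have := h'.hf
      nlinarith
    have h3 : 3 ≤ p' := by
      have h4 := h'.hp.two_le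
      rcases Nat.lt_or_ge 2 p' with h5 | h5
      · exact h5
      · exfalso
        have h6 : p' = 2 := by omega
        rw [h6] at hodd
        have : 2 ∣ 2 ^ f' := dvd_pow_self 2 (by have := h'.hf; omega)
        exact hodd.not_two_dvd_nat this
    have h4 : 3 ^ 9 ≤ p' ^ 9 := Nat.pow_le_pow_left h3 9
    have h5 : ∀ N : ℕ, 0 < N → N < 2 * 3 ^ 9 → M = N → N = p' ^ 9 := by
      intro N hN hN2 hMN
      rw [hMN] at h2
      obtain ⟨c, hc⟩ := h2
      have hc1 : c = 1 := by
        have : c < 2 := by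
          by_contra hcon
          have : p' ^ 9 * 2 ≤ p' ^ 9 * c := Nat.mul_le_mul_left _ (by omega)
          omega
        rcases Nat.lt_or_ge 0 c with h6 | h6
        · omega
        · have : c = 0 := by omega
          rw [this, mul_zero] at hc
          omega
      rw [hc, hc1, mul_one]
    have h6 : p' ^ 9 ≠ 20160 ∧ p' ^ 9 ≠ 25920 := by
      rcases Nat.lt_or_ge p' 4 with h7 | h7
      · have : p' = 3 := by omega
        rw [this]; norm_num
      · have h8 : 4 ^ 9 ≤ p' ^ 9 := Nat.pow_le_pow_left h7 9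
        omega
    refine ⟨fun h7 => ?_, fun h7 => ?_, fun h7 => ?_, fun h7 => ?_⟩
    · have := h5 60 (by norm_num) (by norm_num) h7
      omega
    · have := h5 168 (by norm_num) (by norm_num) h7
      omega
    · exact h6.2 (h5 25920 (by norm_num) (by norm_num) h7).symm
    · exact h6.1 (h5 20160 (by norm_num) (by norm_num) h7).symm
  rcases eq_or_ne p p' with rfl | hne
  · rcases Art.same_char h h' with ⟨h1, -⟩ | h1
    · exact absurd h1 (by simp)
    · exact hbig.2.2.2 h1
  · rcases Art.cross_char h h' hne with h1 | h1 | h1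
    · exact hbig.1 h1
    · exact hbig.2.1 h1
    · exact hbig.2.2.1 h1

/-- **A simple group with the order and the spectrum of `PSL_n(q)` is `PSL_n(q)`.** -/
theorem of_simple {F : Type u} [Field F] [Fintype F] {n : ℕ} (hn : 3 ≤ n) {G : Type v} [Group G] [Finite G] [IsSimpleGroup G]
    (hspec : Set.range (orderOf : G → ℕ) =
      Set.range (orderOf : Matrix.ProjectiveSpecialLinearGroup (Fin n) F → ℕ))
    (hcard : Nat.card G = Nat.card (Matrix.ProjectiveSpecialLinearGroup (Fin n) F)) :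
    Nonempty (G ≃* Matrix.ProjectiveSpecialLinearGroup (Fin n) F) := by
  obtain ⟨p, hchar⟩ := CharP.exists F
  obtain ⟨f, hp, hf⟩ := FiniteField.card F p
  have hpf : Fact p.Prime := ⟨hp⟩
  let F0 := GaloisField p f
  letI : Fintype F0 := Fintype.ofFinite F0
  have hF0 : Fintype.card F0 = p ^ (f : ℕ) := by
    rw [← Nat.card_eq_fintype_card]
    exact GaloisField.card p f f.ne_zero
  obtain ⟨e0⟩ := PslCard.psl_of_card (n := Fin n) (F := F) (F' := F0) (by rw [hf, hF0])
  set T := Matrix.ProjectiveSpecialLinearGroup (Fin n) F0 with hT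
  have hcardT : Nat.card G = Nat.card T := hcard.trans (Nat.card_congr e0.toEquiv)
  have hspecT : Set.range (orderOf : G → ℕ) = Set.range (orderOf : T → ℕ) :=
    hspec.trans (PslCard.spec_of_equiv e0).1
  have hreal : Art.Real (.L n) p f (Nat.card T) :=
    Names.psl_real hp f.pos hF0 (by omega) (fun h => by omega)
  have hsimple : IsSimpleGroup T := Cfsg.Agent.S0249.result n hn
  have hno : ∀ (K : Type) [Field K] [Fintype K], Fintype.card K = 4 →
      ∀ x : Matrix.ProjectiveSpecialLinearGroup (Fin 3) K, orderOf x ≠ 15 := fun K _ _ hK x =>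
    Cfsg.Agent.S0819.result hK x
  rcases Artin.artin hcardT with h | ⟨⟨e⟩, K, _, _, hK, ⟨e'⟩⟩ | ⟨⟨K, _, _, hK, ⟨e⟩⟩, ⟨e'⟩⟩ |
    ⟨m, q, hm, hq, h1, -⟩ | ⟨m, q, hm, hq, h1, -⟩
  · obtain ⟨e⟩ := h
    exact ⟨e.trans e0.symm⟩
  · exfalso
    obtain ⟨x, hx⟩ := exists_fifteen
    have h1 : 15 ∈ Set.range (orderOf : G → ℕ) := by
      rw [(PslCard.spec_of_equiv e).1]; exact ⟨x, hx⟩
    rw [hspecT, (PslCard.spec_of_equiv e').1] at h1
    obtain ⟨y, hy⟩ := h1
    exact hno K hK y hy
  · exfalso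
    obtain ⟨x, hx⟩ := exists_fifteen
    have h1 : 15 ∈ Set.range (orderOf : T → ℕ) := by
      rw [(PslCard.spec_of_equiv e').1]; exact ⟨x, hx⟩
    rw [← hspecT, (PslCard.spec_of_equiv e).1] at h1
    obtain ⟨y, hy⟩ := h1
    exact hno K hK y hy
  · exfalso
    obtain ⟨K, _, _, hK, ⟨e⟩⟩ := h1
    obtain ⟨p', f', hp', hf', hK'⟩ := Names.exists_pp K
    have h2 := Names.psp_real hp' hf' hK' (m := m) (by omega) (by omega)
    rw [← Nat.card_congr e.toEquiv, hcardT] at h2
    exact not_C hreal h2 hm (by rw [← hK', hK]; exact hq)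
  · exfalso
    obtain ⟨K, _, _, hK, ⟨e⟩⟩ := h1
    obtain ⟨p', f', hp', hf', hK'⟩ := Names.exists_pp K
    have ho : Odd (p' ^ f') := by rw [← hK', hK]; exact hq
    have h2 := Names.oodd_real hp' hf' hK' (m := m) hm ho
    rw [← Nat.card_congr e.toEquiv, hcardT] at h2
    exact not_C hreal h2 hm ho

end Cfsg.Agent.H363.PslIdent
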