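import Mathlib
import Cfsg.Agent.H363.PslIso
import Cfsg.Agent.H363.PslDD
import Cfsg.Agent.H363.PslExc
import Cfsg.Agent.H363.MasterB

/-!
# `PSL_4(3)`, `PSL_4(4)` by order and spectrum: simplicity
-/

set_option autoImplicit false

namespace Cfsg.Agent.H363.PslIso

open Cfsg Cfsg.Agent.H902 Cfsg.Agent.H363.Frat Cfsg.Agent.H363.Master Cfsg.Agent.H363.PslGen
open Cfsg.Agent.Lib.Zsigmondy Cfsg.Agent.H363.PslExc

universe u

/-- the `p`-part of the index -/
theorem pk {G : Type u} [Group G] [Finite G] {p n l : ℕ} (hp : p.Prime) (hl : l.Prime) (hl2 : l ≠ 2) (hlp : l ≠ p)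
    (hna : NonAdj G l p) (hcyc : ∃ x : G, l ^ (Nat.card G).factorization l ∣ orderOf x)
    (hexp : ∀ (x : G) (k : ℕ), orderOf x = p ^ k → k = 0 ∨ p ^ (k - 1) < n)
    {K : Subgroup G} [K.Normal] (hpK : ¬ p ∣ Nat.card K) (N : Subgroup (G ⧸ K)) [N.Normal]
    (hlK : ¬ l ∣ Nat.card K) (hlN : l ∣ Nat.card N) :
    ∃ k, (k = 0 ∨ p ^ (k - 1) < n) ∧ (Nat.card N).factorization p + k = (Nat.card G).factorization p := by
  have : Fact p.Prime := ⟨hp⟩
  refine ⟨N.index.factorization p, ?_, ?_⟩
  · set k := N.index.factorization p with hk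
    have hpk : p ^ k ∣ N.index := Nat.ordProj_dvd _ _
    obtain ⟨y, hy⟩ := exists_orderOf_eq hp hl hl2 hlp (hna.quotient K)
      (exists_orderOf_quotient hl hcyc hlK) N hlN hpk
    obtain ⟨z, c, hc⟩ := exists_orderOf_lift ⟨y, hy⟩
    have hc0 : c ≠ 0 := by
      rintro rfl
      rw [mul_zero] at hc
      exact (orderOf_pos z).ne' hc
    have ho : orderOf (z ^ c) = p ^ k := by
      rw [orderOf_pow' z hc0, hc, Nat.gcd_eq_right (Dvd.intro_left _ rfl)]
      exact Nat.mul_div_cancel _ (Nat.pos_of_ne_zero hc0)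
    exact hexp _ _ ho
  · rw [← factorization_quotient hpK, ← N.card_mul_index,
      Nat.factorization_mul Nat.card_pos.ne' Subgroup.index_ne_zero_of_finite, Finsupp.add_apply]

/-- the section is the whole group -/
theorem isSimple_of_card {G : Type u} [Group G] [Finite G] {K : Subgroup G} [K.Normal] {N : Subgroup (G ⧸ K)}
    (hN : IsSimpleGroup N) (hcard : Nat.card N = Nat.card G) : IsSimpleGroup G := by
  have h2 : Nat.card K * Nat.card (G ⧸ K) = Nat.card G := by
    rw [← Subgroup.index_eq_card, Subgroup.card_mul_index]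
  have h3 : Nat.card N ≤ Nat.card (G ⧸ K) :=
    Nat.le_of_dvd Nat.card_pos (Subgroup.card_subgroup_dvd_card N)
  have hKpos : 0 < Nat.card K := Nat.card_pos
  have hGpos : 0 < Nat.card G := Nat.card_pos
  have hK1 : Nat.card K = 1 := by
    by_contra hcon
    have h4 : 2 * Nat.card (G ⧸ K) ≤ Nat.card K * Nat.card (G ⧸ K) :=
      Nat.mul_le_mul_right _ (by omega)
    omega
  have hKbot : K = ⊥ := Subgroup.card_eq_one.mp hK1
  have hNtop : N = ⊤ := by
    apply Subgroup.eq_top_of_card_eq
    rw [hK1, one_mul] at h2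
    omega
  subst hKbot
  subst hNtop
  have e1 : (⊤ : Subgroup (G ⧸ (⊥ : Subgroup G))) ≃* G :=
    Subgroup.topEquiv.trans QuotientGroup.quotientBot
  exact e1.symm.isSimpleGroup

theorem cands43 : (OrdDiv.cands [(2, 7), (3, 6), (5, 1), (13, 1)] 6065280).filter
    (fun g => OrdDiv.ordN g % 81 == 0) = [.psl 4 3, .psp 2 3, .psu 4 2] := by decide +kernel

theorem cands44 : (OrdDiv.cands [(2, 12), (3, 4), (5, 2), (7, 1), (17, 1)] 987033600).filter
    (fun g => OrdDiv.ordN g % 1024 == 0) = [.psl 4 4, .ominus 4 2] := by decide +kernel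

theorem simple43 (T : OrdDiv.OrderTable.{u})
    (known : ∀ (S : Type u) [Group S] [Finite S] [IsSimpleGroup S], IsKnownSimple' S)
    {G : Type u} [Group G] [Finite G] (h : GHyp G 3 1 4) : IsSimpleGroup G := by
  have hcard := card43 h.real
  have f3 : (Nat.card G).factorization 3 = 6 := fac_eq (m := 8320) Nat.prime_three (by rw [hcard]; norm_num)
    (by norm_num) (by norm_num)
  have f5 : (Nat.card G).factorization 5 = 1 := fac_eq (m := 1213056) Nat.prime_five (by rw [hcard]; norm_num)
    (by norm_num) (by norm_num)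
  have f13 : (Nat.card G).factorization 13 = 1 := fac_eq (m := 466560) (by norm_num) (by rw [hcard]; norm_num)
    (by norm_num) (by norm_num)
  have h5 := h.nonadj 5 Nat.prime_five (Or.inl o5')
  have h13 := h.nonadj 13 (by norm_num) (Or.inr o13')
  obtain ⟨K, hK, N, hS⟩ := exists_sect (p := 3) (r := 5) (s := 13) Nat.prime_three Nat.prime_five
    (by norm_num) (by norm_num) (by norm_num) h5 h13 (by rw [hcard]; norm_num) (by rw [hcard]; norm_num)
    (by rw [hcard]; norm_num) (by rw [f3, f5]; norm_num) (by rw [f3, f13]; norm_num)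
    (by
      rw [f3]
      intro j hj0 hj h1 h2
      interval_cases j <;> revert h1 h2 <;> decide)
  have hNn := hS.normal
  have hNs := hS.simple
  have hpK := hS.pK
  obtain ⟨k, hk, hwk⟩ : ∃ k, (k = 0 ∨ 3 ^ (k - 1) < 4) ∧
      (Nat.card N).factorization 3 + k = (Nat.card G).factorization 3 := by
    rcases hS.rsN with h1 | h1
    · exact pk Nat.prime_three Nat.prime_five (by norm_num) (by norm_num) h5
        (h.cyc 5 Nat.prime_five (Or.inl o5')) h.expp hpK N hS.rK h1
    · exact pk Nat.prime_three (by norm_num) (by norm_num) (by norm_num) h13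
        (h.cyc 13 (by norm_num) (Or.inr o13')) h.expp hpK N hS.sK h1
  rw [f3] at hwk
  have hk2 : k ≤ 2 := by
    rcases hk with h1 | h1
    · omega
    · by_contra hcon
      have : 3 ^ 2 ≤ 3 ^ (k - 1) := Nat.pow_le_pow_right (by norm_num) (by omega)
      omega
  have h81 : Nat.card N % 81 = 0 := by
    apply Nat.mod_eq_zero_of_dvd
    refine dvd_trans ?_ (Nat.ordProj_dvd (Nat.card N) 3)
    exact (show (81 : ℕ) = 3 ^ 4 by norm_num) ▸ pow_dvd_pow 3 (by omega)
  have hNG : Nat.card N ∣ Nat.card G :=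
    (Subgroup.card_subgroup_dvd_card N).trans (Subgroup.card_quotient_dvd_card K)
  obtain ⟨g, hg, hr, hgc⟩ := OrdDiv.exists_good T (known N) hS.nab
    (l := [(2, 7), (3, 6), (5, 1), (13, 1)]) (N := 6065280) (by decide +kernel) (by rw [← hcard]; exact hNG)
  have hg' : g ∈ (OrdDiv.cands [(2, 7), (3, 6), (5, 1), (13, 1)] 6065280).filter
      (fun g => OrdDiv.ordN g % 81 == 0) := List.mem_filter.2 ⟨hg, by rw [← hgc, h81]; rfl⟩
  rw [cands43] at hg'
  have hcases : Nat.card N = 6065280 ∨ Nat.card N = 25920 := by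
    rw [hgc]
    simp only [List.mem_cons, List.not_mem_nil, or_false] at hg'
    rcases hg' with rfl | rfl | rfl
    · left; decide +kernel
    · right; decide +kernel
    · right; decide +kernel
  rcases hcases with h1 | h1
  · exact isSimple_of_card hNs (by rw [h1, hcard])
  · exfalso
    have h2 := dvd_pow_sub_one Nat.prime_three (r := 13) (by norm_num) (by norm_num) (h13.quotient K) N
      (dvd_quotient (by norm_num) hS.sK (by rw [hcard]; norm_num)) (by rw [h1]; norm_num)
    have h3 : (Nat.card N).factorization 3 = 4 := fac_eq (m := 320) Nat.prime_three (by rw [h1]; norm_num)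
      (by norm_num) (by norm_num)
    rw [h3] at h2
    revert h2
    decide

theorem simple44 (T : OrdDiv.OrderTable.{u})
    (known : ∀ (S : Type u) [Group S] [Finite S] [IsSimpleGroup S], IsKnownSimple' S)
    {G : Type u} [Group G] [Finite G] (h : GHyp G 2 2 4) (h7 : ∀ x : G, 7 ∣ orderOf x → orderOf x ∣ 63) :
    IsSimpleGroup G := by
  have hcard := card44 h.real
  have f2 : (Nat.card G).factorization 2 = 12 := fac_eq (m := 240975) Nat.prime_two (by rw [hcard]; norm_num)
    (by norm_num) (by norm_num)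
  have f17 : (Nat.card G).factorization 17 = 1 := fac_eq (m := 58060800) (by norm_num) (by rw [hcard]; norm_num)
    (by norm_num) (by norm_num)
  have f7 : (Nat.card G).factorization 7 = 1 := fac_eq (m := 141004800) (by norm_num) (by rw [hcard]; norm_num)
    (by norm_num) (by norm_num)
  have h17 := h.nonadj 17 (by norm_num) (Or.inl o17)
  have hn7 : NonAdj G 7 2 := by
    intro g hg
    have h1 := h7 g (by rw [hg]; norm_num)
    rw [hg] at h1
    revert h1
    decide
  have : Fact (Nat.Prime 7) := ⟨by norm_num⟩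
  have hcyc7 : ∃ x : G, 7 ^ (Nat.card G).factorization 7 ∣ orderOf x := by
    obtain ⟨x, hx⟩ := exists_prime_orderOf_dvd_card' (G := G) 7 (by rw [hcard]; norm_num)
    exact ⟨x, by rw [f7, hx]; norm_num⟩
  obtain ⟨K, hK, N, hS⟩ := exists_sect (p := 2) (r := 17) (s := 7) Nat.prime_two (by norm_num)
    (by norm_num) (by norm_num) (by norm_num) h17 hn7 (by rw [hcard]; norm_num) (by rw [hcard]; norm_num)
    (by rw [hcard]; norm_num) (by rw [f2, f17]; norm_num) (by rw [f2, f7]; norm_num)
    (by
      rw [f2]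
      intro j hj0 hj h1 h2
      interval_cases j <;> revert h1 h2 <;> decide)
  have hNn := hS.normal
  have hNs := hS.simple
  have hpK := hS.pK
  obtain ⟨k, hk, hwk⟩ : ∃ k, (k = 0 ∨ 2 ^ (k - 1) < 4) ∧
      (Nat.card N).factorization 2 + k = (Nat.card G).factorization 2 := by
    rcases hS.rsN with h1 | h1
    · exact pk Nat.prime_two (by norm_num) (by norm_num) (by norm_num) h17
        (h.cyc 17 (by norm_num) (Or.inl o17)) h.expp hpK N hS.rK h1
    · exact pk Nat.prime_two (by norm_num) (by norm_num) (by norm_num) hn7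
        hcyc7 h.expp hpK N hS.sK h1
  rw [f2] at hwk
  have hk2 : k ≤ 2 := by
    rcases hk with h1 | h1
    · omega
    · by_contra hcon
      have : 2 ^ 2 ≤ 2 ^ (k - 1) := Nat.pow_le_pow_right (by norm_num) (by omega)
      omega
  have h1024 : Nat.card N % 1024 = 0 := by
    apply Nat.mod_eq_zero_of_dvd
    refine dvd_trans ?_ (Nat.ordProj_dvd (Nat.card N) 2)
    exact (show (1024 : ℕ) = 2 ^ 10 by norm_num) ▸ pow_dvd_pow 2 (by omega)
  have hNG : Nat.card N ∣ Nat.card G :=
    (Subgroup.card_subgroup_dvd_card N).trans (Subgroup.card_quotient_dvd_card K)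
  obtain ⟨g, hg, hr, hgc⟩ := OrdDiv.exists_good T (known N) hS.nab
    (l := [(2, 12), (3, 4), (5, 2), (7, 1), (17, 1)]) (N := 987033600) (by decide +kernel)
    (by rw [← hcard]; exact hNG)
  have hg' : g ∈ (OrdDiv.cands [(2, 12), (3, 4), (5, 2), (7, 1), (17, 1)] 987033600).filter
      (fun g => OrdDiv.ordN g % 1024 == 0) := List.mem_filter.2 ⟨hg, by rw [← hgc, h1024]; rfl⟩
  rw [cands44] at hg'
  simp only [List.mem_cons, List.not_mem_nil, or_false] at hg'
  rcases hg' with rfl | rfl
  · refine isSimple_of_card hNs ?_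
    rw [hcard, hgc]
    decide +kernel
  · exfalso
    have hr' : OrdDiv.Real (.ominus 4 2) N := hr
    obtain ⟨F, _, _, a, b, hF, hab, ⟨e⟩⟩ := hr'
    have hN : Art.Real (.DD 4) 2 1 (Nat.card N) := by
      rw [Nat.card_congr e.toEquiv]
      exact Names.ominus_real Nat.prime_two le_rfl (by rw [hF]; norm_num) le_rfl hab
    have hout : PslLie.OutD 1 N := PslLie.ominus_out Nat.prime_two le_rfl (by rw [hF]; norm_num) le_rfl hab e
    refine dd_false (g := 1) (n := 4) (s := 7) le_rfl hpK h.real hN hout (by norm_num) ?_ ?_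
    · rw [hgc]; decide +kernel
    · exact h7

end Cfsg.Agent.H363.PslIso
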