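import Mathlib
import Cfsg.Agent.H363.PslCard
import Cfsg.Agent.H363.PslExc
import Cfsg.Agent.H363.PslIsoB
import Cfsg.Agent.S0228
import Cfsg.Agent.S0250
import Cfsg.Agent.S0251

/-!
# `PSL_2(2)`, `PSL_2(3)` by order and spectrum; the special elements of `PSL_6(2)`, `PSL_7(2)`, `PSL_4(4)`
-/

set_option autoImplicit false

namespace Cfsg.Agent.H363.PslSmall

open Cfsg Cfsg.Agent.H363.Frat Cfsg.Agent.H363.PslSpec Cfsg.Agent.H363.PslIso
open Cfsg.Agent.Lib.Zsigmondy

universe u v

/-- a group of order six without elements of order six -/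
theorem equiv_s3 {G : Type u} [Group G] [Finite G] (h6 : Nat.card G = 6) (hno : ∀ x : G, orderOf x ≠ 6) :
    Nonempty (G ≃* Equiv.Perm (Fin 3)) := by
  have : Fact (Nat.Prime 2) := ⟨Nat.prime_two⟩
  have : Fact (Nat.Prime 3) := ⟨Nat.prime_three⟩
  obtain ⟨t, ht⟩ := exists_prime_orderOf_dvd_card' (G := G) 2 (by rw [h6]; norm_num)
  obtain ⟨c, hc⟩ := exists_prime_orderOf_dvd_card' (G := G) 3 (by rw [h6]; norm_num)
  have hnc : ¬ Commute t c := by
    intro h
    have h1 := h.orderOf_mul_eq_mul_orderOf_of_coprime (by rw [ht, hc]; norm_num)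
    exact hno (t * c) (by rw [h1, ht, hc])
  set H := Subgroup.zpowers t with hH
  have hHc : Nat.card H = 2 := by rw [hH, Nat.card_zpowers, ht]
  have hHi : H.index = 3 := by
    have h1 := H.card_mul_index
    rw [hHc, h6] at h1
    omega
  have hcore : H.normalCore = ⊥ := by
    have h1 : Nat.card H.normalCore ∣ 2 := by
      rw [← hHc]
      exact Subgroup.card_dvd_of_le H.normalCore_le
    rcases (Nat.dvd_prime Nat.prime_two).mp h1 with h2 | h2
    · exact Subgroup.card_eq_one.mp h2
    · exfalso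
      have h3 : H.normalCore = H := Subgroup.eq_of_le_of_card_ge H.normalCore_le (by rw [h2, hHc])
      have h4 : H.Normal := by rw [← h3]; infer_instance
      have h5 : c * t * c⁻¹ ∈ H := h4.conj_mem t (Subgroup.mem_zpowers t) c
      apply hnc
      rw [hH, Subgroup.mem_zpowers_iff] at h5
      obtain ⟨i, hi⟩ := h5
      have h6 : t ^ (2 : ℤ) = 1 := by
        rw [zpow_ofNat, ← ht, pow_orderOf_eq_one]
      rcases Int.even_or_odd i with ⟨j, rfl⟩ | ⟨j, rfl⟩
      · exfalso
        rw [← two_mul, zpow_mul, h6, one_zpow] at hi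
        have : t = 1 := by
          have h7 : t = c⁻¹ * (c * t * c⁻¹) * c := by group
          rw [h7, ← hi]; group
        rw [this, orderOf_one] at ht
        omega
      · rw [zpow_add, zpow_mul, h6, one_zpow, one_mul, zpow_one] at hi
        rw [commute_iff_eq]
        calc t * c = (c * t * c⁻¹) * c := by rw [← hi]
          _ = c * t := by group
  have hinj : Function.Injective (MulAction.toPermHom G (G ⧸ H)) := by
    rw [← MonoidHom.ker_eq_bot_iff, ← Subgroup.normalCore_eq_ker, hcore]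
  have hX : Nat.card (G ⧸ H) = 3 := by rw [← Subgroup.index_eq_card, hHi]
  have e : G ⧸ H ≃ Fin 3 := Finite.equivFinOfCardEq hX
  have hbij : Function.Bijective (MulAction.toPermHom G (G ⧸ H)) := by
    apply (Nat.bijective_iff_injective_and_card _).mpr
    refine ⟨hinj, ?_⟩
    rw [Nat.card_congr e.permCongr, h6, Nat.card_eq_fintype_card, Fintype.card_perm, Fintype.card_fin]
    rfl
  exact ⟨(MulEquiv.ofBijective _ hbij).trans e.permCongrHom⟩

theorem psl_two_two {F : Type} [Field F] [Fintype F] (hF : Fintype.card F = 2) {G : Type u} [Group G] [Finite G]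
    (hspec : Set.range (orderOf : G → ℕ) =
      Set.range (orderOf : Matrix.ProjectiveSpecialLinearGroup (Fin 2) F → ℕ))
    (hcard : Nat.card G = Nat.card (Matrix.ProjectiveSpecialLinearGroup (Fin 2) F)) :
    Nonempty (G ≃* Matrix.ProjectiveSpecialLinearGroup (Fin 2) F) := by
  obtain ⟨e⟩ := S0250.result hF
  have h6 : Nat.card (Matrix.ProjectiveSpecialLinearGroup (Fin 2) F) = 6 := by
    have := PslExc.card_psl_two (F := F)
    rw [hF] at this
    norm_num at this
    exact this
  have hno : ∀ x : Matrix.ProjectiveSpecialLinearGroup (Fin 2) F, orderOf x ≠ 6 := by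
    intro x hx
    obtain ⟨g, rfl⟩ := QuotientGroup.mk'_surjective _ x
    have h1 : 6 ∣ orderOf g := by
      rw [← hx]
      exact orderOf_map_dvd _ g
    have h2 : orderOf (e g) = orderOf g := MulEquiv.orderOf_eq e g
    have h3 : ∀ σ : Equiv.Perm (Fin 3), σ ^ 2 = 1 ∨ σ ^ 3 = 1 := by decide
    rw [← h2] at h1
    rcases h3 (e g) with h4 | h4
    · have h5 := Nat.le_of_dvd (by norm_num) (h1.trans (orderOf_dvd_of_pow_eq_one h4))
      omega
    · have h5 := Nat.le_of_dvd (by norm_num) (h1.trans (orderOf_dvd_of_pow_eq_one h4))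
      omega
  have hno' : ∀ x : G, orderOf x ≠ 6 := by
    intro x hx
    have h1 : 6 ∈ Set.range (orderOf : G → ℕ) := ⟨x, hx⟩
    rw [hspec] at h1
    obtain ⟨y, hy⟩ := h1
    exact hno y hy
  obtain ⟨e1⟩ := equiv_s3 (hcard.trans h6) hno'
  obtain ⟨e2⟩ := equiv_s3 h6 hno
  exact ⟨e1.trans e2.symm⟩

theorem psl_two_three {F : Type} [Field F] [Fintype F] (hF : Fintype.card F = 3) {G : Type u} [Group G] [Finite G]
    (hspec : Set.range (orderOf : G → ℕ) =
      Set.range (orderOf : Matrix.ProjectiveSpecialLinearGroup (Fin 2) F → ℕ))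
    (hcard : Nat.card G = Nat.card (Matrix.ProjectiveSpecialLinearGroup (Fin 2) F)) :
    Nonempty (G ≃* Matrix.ProjectiveSpecialLinearGroup (Fin 2) F) := by
  obtain ⟨e⟩ := S0251.result hF
  have : Fact (Nat.Prime 3) := ⟨Nat.prime_three⟩
  have h12 : Nat.card (Matrix.ProjectiveSpecialLinearGroup (Fin 2) F) = 12 := by
    rw [Nat.card_congr e.toEquiv, Nat.card_eq_fintype_card]
    decide +kernel
  have hno : ∀ x : Matrix.ProjectiveSpecialLinearGroup (Fin 2) F, orderOf x ≠ 6 := by
    intro x hx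
    have h2 : orderOf (e x) = orderOf x := MulEquiv.orderOf_eq e x
    have h3 : ∀ σ : alternatingGroup (Fin 4), σ ^ 2 = 1 ∨ σ ^ 3 = 1 := by decide +kernel
    rw [← h2] at hx
    rcases h3 (e x) with h4 | h4
    · have h5 := Nat.le_of_dvd (by norm_num) (orderOf_dvd_of_pow_eq_one h4)
      omega
    · have h5 := Nat.le_of_dvd (by norm_num) (orderOf_dvd_of_pow_eq_one h4)
      omega
  have hno' : ∀ x : G, orderOf x ≠ 6 := by
    intro x hx
    have h1 : 6 ∈ Set.range (orderOf : G → ℕ) := ⟨x, hx⟩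
    rw [hspec] at h1
    obtain ⟨y, hy⟩ := h1
    exact hno y hy
  obtain ⟨e1⟩ := S0228.result (G := G) (hcard.trans h12) (by
    intro z hz hzc
    obtain ⟨c, hc⟩ := exists_prime_orderOf_dvd_card' (G := G) 3 (by rw [hcard, h12]; norm_num)
    have h : Commute z c := (Subgroup.mem_center_iff.mp hzc c).symm
    have h1 := h.orderOf_mul_eq_mul_orderOf_of_coprime (by rw [hz, hc]; norm_num)
    exact hno' (z * c) (by rw [h1, hz, hc]))
  exact ⟨e1.trans e.symm⟩

/-- elements of order nine -/
theorem nine_of_spec {F : Type} [Field F] [Fintype F] (hF : Fintype.card F = 2) {n : ℕ} (hn : n = 6 ∨ n = 7)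
    {G : Type u} [Group G] [Finite G]
    (hspec : Set.range (orderOf : G → ℕ) =
      Set.range (orderOf : Matrix.ProjectiveSpecialLinearGroup (Fin n) F → ℕ)) : Nine G := by
  have hNF : Nat.card F = 2 := by rw [Nat.card_eq_fintype_card, hF]
  have hcF : CharP F 2 := by
    obtain ⟨p', hchar⟩ := CharP.exists F
    obtain ⟨f', hp', hf'⟩ := FiniteField.card F p'
    have h1 : 2 ∣ p' ^ (f' : ℕ) := by
      rw [← hf', hF]
    have : 2 = p' := (Nat.prime_dvd_prime_iff_eq Nat.prime_two hp').mp (Nat.prime_two.dvd_of_dvd_pow h1)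
    rw [this]; exact hchar
  constructor
  · have key : ∃ y : Matrix.ProjectiveSpecialLinearGroup (Fin n) F, 9 ∣ orderOf y := by
      rcases hn with rfl | rfl
      · obtain ⟨y, hy⟩ := PslSpec.exists_singer (F := F) (n := 6) (by norm_num)
        rw [hNF] at hy
        exact ⟨y, by rw [hy]; norm_num⟩
      · obtain ⟨y, hy⟩ := PslTorus.exists_big (F := F) (n := 7) (by norm_num)
        rw [hNF] at hy
        norm_num at hy
        exact ⟨y, (by norm_num : 9 ∣ 63).trans hy⟩
    obtain ⟨y, hy⟩ := key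
    have h1 : orderOf y ∈ Set.range (orderOf : G → ℕ) := by rw [hspec]; exact ⟨y, rfl⟩
    obtain ⟨x, hx⟩ := h1
    rw [← hx] at hy
    obtain ⟨c, hc⟩ := hy
    have hc0 : c ≠ 0 := by
      rintro rfl
      rw [mul_zero] at hc
      exact (orderOf_pos x).ne' hc
    refine ⟨x ^ c, ?_⟩
    rw [orderOf_pow' x hc0, hc, Nat.gcd_eq_right (Dvd.intro_left _ rfl)]
    exact Nat.mul_div_cancel _ (Nat.pos_of_ne_zero hc0)
  · intro x hx
    have h1 : orderOf x ∈ Set.range (orderOf : Matrix.ProjectiveSpecialLinearGroup (Fin n) F → ℕ) := by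
      rw [← hspec]; exact ⟨x, rfl⟩
    obtain ⟨y, hy⟩ := h1
    rw [← hy] at hx
    have h2 : Nat.gcd n (Nat.card F - 1) = 1 := by rw [hNF]; exact Nat.gcd_one_right n
    refine not_dvd_orderOf (F := F) (n := n) Nat.prime_two (l := 3) (j := 1) (e := 6) Nat.prime_three
      (by rw [hNF]; norm_num) (by rw [h2]; norm_num) ?_ (by omega) (by omega) y (by norm_num; exact hx)
    intro d hd
    rw [hNF] at hd
    have h3 : 9 ∣ 2 ^ d - 1 := hd
    rw [dvd_pow_sub_one_iff (by norm_num)] at h3
    have h4 := o9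
    rw [h4] at h3
    exact h3

/-- elements of order seven -/
theorem seven_of_spec {F : Type} [Field F] [Fintype F] (hF : Fintype.card F = 4) {G : Type u} [Group G] [Finite G]
    (hspec : Set.range (orderOf : G → ℕ) =
      Set.range (orderOf : Matrix.ProjectiveSpecialLinearGroup (Fin 4) F → ℕ)) :
    ∀ x : G, 7 ∣ orderOf x → orderOf x ∣ 63 := by
  have hNF : Nat.card F = 4 := by rw [Nat.card_eq_fintype_card, hF]
  intro x hx
  have h1 : orderOf x ∈ Set.range (orderOf : Matrix.ProjectiveSpecialLinearGroup (Fin 4) F → ℕ) := by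
    rw [← hspec]; exact ⟨x, rfl⟩
  obtain ⟨y, hy⟩ := h1
  rw [← hy] at hx ⊢
  have h2 := PslTorus.orderOf_dvd_torus (F := F) (n := 4) (s := 7) (by norm_num) (by norm_num)
    (by rw [hNF]; norm_num) (by rw [hNF]; intro d h1 h2; interval_cases d <;> norm_num)
    (by rw [hNF]; norm_num) y hx
  rw [hNF] at h2
  exact h2

end Cfsg.Agent.H363.PslSmall
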