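import Mathlib
import Cfsg.Agent.H363.PslGen
import Cfsg.Agent.H363.PslSmall
import Cfsg.Agent.H363.PslThree
import Cfsg.Agent.H363.PslIdent
import Cfsg.Agent.H363.PSL2Main

/-!
# `PSL_n(q)` by order and spectrum
-/

set_option autoImplicit false

namespace Cfsg.Agent.H363.PslAll

open Cfsg Cfsg.Agent.H902 Cfsg.Agent.H363.PslGen Cfsg.Agent.H363.PslIso Cfsg.Agent.H363.PslSmall

universe u v

/-- **A group with the order and the spectrum of `PSL_n(q)`, `n ≥ 4`, is simple.** -/
theorem isSimple (T : OrdDiv.OrderTable.{u})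
    (known : ∀ (S : Type u) [Group S] [Finite S] [IsSimpleGroup S], IsKnownSimple' S)
    {F : Type} [Field F] [Fintype F] {p f n : ℕ} (hp : p.Prime) (hf : 1 ≤ f)
    (hF : Fintype.card F = p ^ f) (hn : 4 ≤ n) {G : Type u} [Group G] [Finite G]
    (hspec : Set.range (orderOf : G → ℕ) =
      Set.range (orderOf : Matrix.ProjectiveSpecialLinearGroup (Fin n) F → ℕ))
    (hcard : Nat.card G = Nat.card (Matrix.ProjectiveSpecialLinearGroup (Fin n) F)) :
    IsSimpleGroup G := by
  have h := GHyp.of_spec hp hf hF hn hspec hcard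
  by_cases h1 : (p = 2 → 7 ≤ f * n ∧ f * (n - 1) ≠ 6) ∧ (p = 3 → 5 ≤ f * n)
  · exact h.simple T known hn h1.1 h1.2
  · rw [not_and_or] at h1
    rcases h1 with h1 | h1
    · push Not at h1
      obtain ⟨rfl, h2⟩ := h1
      have hcases : (f = 1 ∧ (n = 4 ∨ n = 5 ∨ n = 6 ∨ n = 7)) ∨ (f = 2 ∧ n = 4) := by
        rcases Nat.lt_or_ge (f * n) 7 with h3 | h3
        · have h4 : f * 4 ≤ f * n := Nat.mul_le_mul_left f hn
          have h5 : f = 1 := by omega
          subst h5
          left
          omega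
        · have h3' := h2 h3
          have h4 : f * 3 ≤ f * (n - 1) := Nat.mul_le_mul_left f (by omega)
          have h5 : f = 1 ∨ f = 2 := by omega
          rcases h5 with rfl | rfl <;> omega
      rcases hcases with ⟨rfl, rfl | rfl | rfl | rfl⟩ | ⟨rfl, rfl⟩
      · exact simple42 h
      · exact simple52 h
      · exact simple62 T known h (nine_of_spec (by rw [hF, pow_one]) (Or.inl rfl) hspec)
      · exact simple72 T known h (nine_of_spec (by rw [hF, pow_one]) (Or.inr rfl) hspec)
      · exact simple44 T known h (seven_of_spec (by rw [hF]; norm_num) hspec)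
    · push Not at h1
      obtain ⟨rfl, h2⟩ := h1
      have h4 : f * 4 ≤ f * n := Nat.mul_le_mul_left f hn
      have h5 : f = 1 := by omega
      subst h5
      have h6 : n = 4 := by omega
      subst h6
      exact simple43 T known h

/-- **`PSL_n(q)` by order and spectrum.** -/
theorem main (T : OrdDiv.OrderTable.{v})
    (known : ∀ (S : Type v) [Group S] [Finite S] [IsSimpleGroup S], IsKnownSimple' S)
    {F : Type u} [Field F] [Fintype F] {n : ℕ} (hn : 2 ≤ n) {G : Type v} [Group G] [Finite G]
    (hspec : Set.range (orderOf : G → ℕ) =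
      Set.range (orderOf : Matrix.ProjectiveSpecialLinearGroup (Fin n) F → ℕ))
    (hcard : Nat.card G = Nat.card (Matrix.ProjectiveSpecialLinearGroup (Fin n) F)) :
    Nonempty (G ≃* Matrix.ProjectiveSpecialLinearGroup (Fin n) F) := by
  obtain ⟨p, hchar⟩ := CharP.exists F
  obtain ⟨f, hp, hf⟩ := FiniteField.card F p
  have hpf : Fact p.Prime := ⟨hp⟩
  let F0 := GaloisField p f
  letI : Fintype F0 := Fintype.ofFinite F0
  have hF0 : Fintype.card F0 = p ^ (f : ℕ) := by
    rw [← Nat.card_eq_fintype_card]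
    exact GaloisField.card p f f.ne_zero
  obtain ⟨e0⟩ := PslCard.psl_of_card (n := Fin n) (F := F) (F' := F0) (by rw [hf, hF0])
  have hcardT : Nat.card G = Nat.card (Matrix.ProjectiveSpecialLinearGroup (Fin n) F0) :=
    hcard.trans (Nat.card_congr e0.toEquiv)
  have hspecT : Set.range (orderOf : G → ℕ) =
      Set.range (orderOf : Matrix.ProjectiveSpecialLinearGroup (Fin n) F0 → ℕ) :=
    hspec.trans (PslCard.spec_of_equiv e0).1
  rcases (by omega : n = 2 ∨ n = 3 ∨ 4 ≤ n) with rfl | rfl | hn4
  · have hq : 1 < Fintype.card F0 := Fintype.one_lt_card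
    rcases (by omega : Fintype.card F0 = 2 ∨ Fintype.card F0 = 3 ∨ 3 < Fintype.card F0) with h | h | h
    · obtain ⟨e⟩ := psl_two_two h hspecT hcardT
      exact ⟨e.trans e0.symm⟩
    · obtain ⟨e⟩ := psl_two_three h hspecT hcardT
      exact ⟨e.trans e0.symm⟩
    · have h4 : 3 < Fintype.card F := by rw [hf, ← hF0]; exact h
      rcases Nat.even_or_odd (Fintype.card F) with h | h
      · exact Cfsg.Agent.H363.PSL2Main.even_case rfl h4 h hspec hcard
      · exact Cfsg.Agent.H363.PSL2Main.odd_case rfl h4 h hspec hcard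
  · have := Cfsg.Agent.H363.PslThree.isSimple hspec hcard
    exact Cfsg.Agent.H363.PslIdent.of_simple le_rfl hspec hcard
  · have := isSimple T known hp f.pos hF0 hn4 hspecT hcardT
    exact Cfsg.Agent.H363.PslIdent.of_simple (by omega) hspec hcard

end Cfsg.Agent.H363.PslAll
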